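import Mathlib

/-! Definitions for the Dade-Glauberman extension theorem (project S4643). -/

namespace CL.DG

open Matrix

variable {F : Type*} [Field F]

/-- Extension of scalars of a square matrix over `F` to an `F`-algebra `K`. -/
def mp (K : Type*) [CommRing K] [Algebra F K] {n : Type*} [Fintype n] [DecidableEq n] :
    Matrix n n F →+* Matrix n n K := (algebraMap F K).mapMatrix

theorem mp_apply (K : Type*) [CommRing K] [Algebra F K] {n : Type*} [Fintype n] [DecidableEq n]
    (X : Matrix n n F) (i j : n) : mp K X i j = algebraMap F K (X i j) := rfl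

theorem mp_smul (K : Type*) [CommRing K] [Algebra F K] {n : Type*} [Fintype n] [DecidableEq n]
    (a : F) (X : Matrix n n F) : mp K (a • X) = algebraMap F K a • mp K X := by
  ext i j; simp [mp_apply]

theorem trace_mp (K : Type*) [CommRing K] [Algebra F K] {n : Type*} [Fintype n] [DecidableEq n]
    (X : Matrix n n F) : (mp K X).trace = algebraMap F K X.trace := by
  simp [Matrix.trace, mp_apply]

theorem map_mp (K L : Type*) [CommRing K] [Algebra F K] [CommRing L] [Algebra F L] [Algebra K L]
    [IsScalarTower F K L] {n : Type*} [Fintype n] [DecidableEq n] (X : Matrix n n F) :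
    (mp K X).map (algebraMap K L) = mp L X := by
  ext i j; simp [mp_apply, ← IsScalarTower.algebraMap_apply]

/-- Fourier inversion with constant `κ` for a matrix representation. -/
def FI {N n : Type*} [Group N] [Fintype N] [Fintype n] [DecidableEq n]
    (R : N →* Matrix n n F) (κ : F) : Prop :=
  κ ≠ 0 ∧ ∀ X : Matrix n n F, ∑ x, (R x⁻¹ * X).trace • R x = κ • X

/-- Fourier inversion after extension of scalars. -/
theorem FI.ext {N n : Type*} [Group N] [Fintype N] [Fintype n] [DecidableEq n]
    {R : N →* Matrix n n F} {κ : F} (h : FI R κ) (K : Type*) [CommRing K] [Algebra F K]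
    (X : Matrix n n K) :
    ∑ x, (mp K (R x⁻¹) * X).trace • mp K (R x) = algebraMap F K κ • X := by
  induction X using Matrix.induction_on' with
  | h_zero => simp
  | h_add A B hA hB =>
    simp only [mul_add, trace_add, add_smul, Finset.sum_add_distrib, smul_add, hA, hB]
  | h_std_basis i j a =>
    have e : (single i j a : Matrix n n K) = a • mp K (single i j (1 : F)) := by
      ext k l
      by_cases hk : i = k ∧ j = l <;> simp [mp_apply, single, hk]
    have := congrArg (mp K) (h.2 (single i j 1))
    rw [map_sum, mp_smul] at this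
    rw [e, smul_comm (algebraMap F K κ) a, ← this, Finset.smul_sum]
    refine Finset.sum_congr rfl fun x _ => ?_
    rw [mp_smul, Matrix.mul_smul, trace_smul, ← map_mul, trace_mp, smul_smul, smul_eq_mul]

variable {Q : Type*} [CommGroup Q] [Fintype Q]

/-- The generic shifted element `∑ y_g (g - 1)` on a permutation module. -/
noncomputable def T0 {K Ω : Type*} [CommRing K] (y : Q → K) (s : Q →* Equiv.Perm Ω) :
    Module.End K (Ω → K) :=
  ∑ g, y g • (LinearMap.funLeft K K (s g⁻¹) - 1)

theorem T0_apply {K Ω : Type*} [CommRing K] (y : Q → K) (s : Q →* Equiv.Perm Ω) (a : Ω → K)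
    (ω : Ω) : T0 y s a ω = ∑ g, y g * (a (s g⁻¹ ω) - a ω) := by
  simp [T0, LinearMap.sum_apply, Finset.sum_apply, LinearMap.funLeft_apply]

variable {n : Type*} [Fintype n] [DecidableEq n]

/-- The generic shifted element on matrices under conjugation. -/
noncomputable def T1 {K : Type*} [CommRing K] [Algebra F K] (y : Q → K)
    (r : Q →* Matrix n n F) : Module.End K (Matrix n n K) :=
  ∑ g, y g • (LinearMap.mulLeft K (mp K (r g)) * LinearMap.mulRight K (mp K (r g⁻¹)) - 1)

theorem T1_apply {K : Type*} [CommRing K] [Algebra F K] (y : Q → K) (r : Q →* Matrix n n F)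
    (P : Matrix n n K) : T1 y r P = ∑ g, y g • (mp K (r g) * P * mp K (r g⁻¹) - P) := by
  simp [T1, LinearMap.sum_apply, mul_assoc]

/-- The generic shifted element as a matrix. -/
noncomputable def tt {K : Type*} [CommRing K] [Algebra F K] (y : Q → K)
    (r : Q →* Matrix n n F) : Matrix n n K :=
  ∑ g, y g • mp K (r g - 1)

/-- The polynomial ring in variables indexed by the group. -/
abbrev PA (F Q : Type*) [Field F] := MvPolynomial Q F

/-- Its fraction field. -/
abbrev PK (F Q : Type*) [Field F] := FractionRing (MvPolynomial Q F)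

/-- The variables in the fraction field. -/
noncomputable def yK (F : Type*) {Q : Type*} [Field F] (g : Q) : PK F Q :=
  algebraMap (PA F Q) (PK F Q) (MvPolynomial.X g)

theorem map_tt (r : Q →* Matrix n n F) :
    (tt (MvPolynomial.X : Q → PA F Q) r).map (algebraMap (PA F Q) (PK F Q)) = tt (yK F) r := by
  ext i j
  simp only [tt, yK, Matrix.map_apply, Matrix.sum_apply, Matrix.smul_apply, smul_eq_mul, map_sum,
    map_mul, mp_apply, ← IsScalarTower.algebraMap_apply]

variable {m : Type*} [Fintype m] [DecidableEq m]

/-- The multiplicity space `Hom_C(W, R)` over `K`. -/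
def UU (K : Type*) [CommRing K] [Algebra F K] {C : Type*} [Group C] (R' : C →* Matrix n n F)
    (W : C →* Matrix m m F) : Submodule K (Matrix n m K) where
  carrier := {X | ∀ c, mp K (R' c) * X = X * mp K (W c)}
  add_mem' := fun {a b} ha hb c => by
    rw [Matrix.mul_add, Matrix.add_mul, ha c, hb c]
  zero_mem' := fun c => by simp
  smul_mem' := fun a X h c => by
    rw [Matrix.mul_smul, Matrix.smul_mul, h c]

theorem mem_UU {K : Type*} [CommRing K] [Algebra F K] {C : Type*} [Group C]
    {R' : C →* Matrix n n F} {W : C →* Matrix m m F} {X : Matrix n m K} :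
    X ∈ UU K R' W ↔ ∀ c, mp K (R' c) * X = X * mp K (W c) := Iff.rfl

/-- `κ` times the central idempotent of `W`, acting in `R'`. -/
noncomputable def e0 {C : Type*} [Group C] [Fintype C] (R' : C →* Matrix n n F)
    (W : C →* Matrix m m F) : Matrix n n F :=
  ∑ c, (W c⁻¹).trace • R' c

/-- The data of the core theorem: `Q` acts on `N` and on the representation `R` of `N`;
`C` maps onto the fixed points; `W` occurs in `R` with multiplicity prime to `p`. -/
structure Data (p : ℕ) {N C : Type*} [Group N] [Fintype N] [Group C] [Fintype C]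
    (α : Q →* MulAut N) (R : N →* Matrix n n F) (r : Q →* Matrix n n F) (j : C →* N)
    (W : C →* Matrix m m F) (κ κ' : F) : Prop where
  conj : ∀ g x, r g * R x = R (α g x) * r g
  rp : ∀ g, r g ^ p = 1
  αp : ∀ g, α g ^ p = 1
  fiR : FI R κ
  fix : ∀ x, (∀ g, α g x = x) ↔ ∃ c, j c = x
  card : (Fintype.card C : F) ≠ 0
  fiW : FI W κ'
  link : ∑ c, (R (j c)).trace * (W c⁻¹).trace ≠ 0

theorem Data.comm {p : ℕ} {N C : Type*} [Group N] [Fintype N] [Group C] [Fintype C]
    {α : Q →* MulAut N} {R : N →* Matrix n n F} {r : Q →* Matrix n n F} {j : C →* N}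
    {W : C →* Matrix m m F} {κ κ' : F} (h : Data p α R r j W κ κ') (g : Q) (c : C) :
    Commute (r g) (R (j c)) := by
  have := h.conj g (j c)
  rwa [(h.fix (j c)).2 ⟨c, rfl⟩ g] at this

/-- `t` commutes with constant matrices commuting with `r`. -/
theorem commute_tt {K : Type*} [CommRing K] [Algebra F K] (y : Q → K) {r : Q →* Matrix n n F}
    {M : Matrix n n F} (h : ∀ g, Commute (r g) M) : Commute (tt y r) (mp K M) :=
  Commute.sum_left _ _ _ fun g _ =>
    Commute.smul_left (((h g).sub_left (Commute.one_left M)).map (mp K)) _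

/-- `t ^ p = 0`. -/
theorem tt_pow {K : Type*} [CommRing K] [Algebra F K] (p : ℕ) [Fact p.Prime] [CharP F p]
    (y : Q → K) {r : Q →* Matrix n n F} (h : ∀ g, r g ^ p = 1) : tt y r ^ p = 0 := by
  have hp0 : ((p : ℕ) : Matrix n n K) = 0 := by
    rw [← map_natCast (mp (F := F) K) p, ← map_natCast (algebraMap F (Matrix n n F)) p,
      CharP.cast_eq_zero, map_zero, map_zero]
  have hc : ∀ g g' : Q, Commute (mp K (r g - 1)) (mp K (r g' - 1)) := fun g g' =>
    ((((Commute.all g g').map r).sub_right (Commute.one_right _)).sub_left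
      (Commute.one_left _)).map (mp K)
  have hp : p.Prime := Fact.out
  have key : ∀ a b : Matrix n n K, Commute a b → (a + b) ^ p = a ^ p + b ^ p := by
    intro a b hab
    obtain ⟨q, hq⟩ := hab.exists_add_pow_prime_eq hp
    rw [hq, hp0]; simp
  have h1 : ∀ g, mp K (r g - 1) ^ p = 0 := by
    intro g
    have := key (mp K (r g - 1)) 1 (Commute.one_right _)
    rw [← map_one (mp (F := F) K), ← map_add, sub_add_cancel, ← map_pow, h g, ← map_pow,
      ← map_pow, one_pow] at this
    rw [← map_pow]
    exact left_eq_add.1 (by rw [add_comm] at this; exact this)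
  unfold tt
  induction (Finset.univ : Finset Q) using Finset.cons_induction with
  | empty => simp [hp.ne_zero]
  | cons a s ha ih =>
    rw [Finset.sum_cons, key, ih, _root_.smul_pow, h1, smul_zero, add_zero]
    exact Commute.smul_left (Commute.sum_right _ _ _ fun g _ => (hc a g).smul_right _) _

end CL.DG
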