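import Mathlib
import Cfsg.Agent.BLK.Perf
import Cfsg.Agent.BLK.Fong
import Cfsg.Agent.BLK.FongCover
import Cfsg.Agent.BLK.Transport
import Cfsg.Agent.BLK.First
import Cfsg.Agent.BLK.Val2
import Cfsg.Agent.BLK.DG.Defs

/-! Character-side definitions for S4643. -/

set_option autoImplicit false

open Cfsg Subgroup CL.Char CL.Blk
open scoped Classical

namespace CL.DG

/-- The kernel of a bijection of characters (all signs `+1`). -/
noncomputable def pker {G H : Type*} [Group G] [Group H] [Finite H] (c : Set (IrrCharacter H))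
    (I : IrrCharacter H → IrrCharacter G) (x : G) (y : H) : ℂ :=
  ∑ η with η ∈ c, (I η).1 x * η.1 y

/-- A perfect bijection with positive signs. -/
structure PIf {G H : Type*} [Group G] [Group H] [Finite H] (p : ℕ) (M : Ideal AlgInt)
    (c : Set (IrrCharacter H)) (B : Set (IrrCharacter G))
    (I : IrrCharacter H → IrrCharacter G) : Prop where
  bij : Set.BijOn I c B
  left : ∀ y, CInt M fun x => pker c I x y
  right : ∀ x, CInt M fun y => pker c I x y
  sep : ∀ x y, ¬ (p ∣ orderOf x ↔ p ∣ orderOf y) → pker c I x y = 0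

/-- There is a perfect bijection from `c` onto `B`. -/
def PI {G H : Type*} [Group G] [Group H] [Finite H] (p : ℕ) (M : Ideal AlgInt)
    (c : Set (IrrCharacter H)) (B : Set (IrrCharacter G)) : Prop :=
  ∃ I, PIf p M c B I

/-- `B` corresponds to `b` through the common cover `Γ` and multiplication by `θ'`. -/
structure Side {G Γ L : Type*} [Group G] [Group Γ] [Group L] (p : ℕ) (π : Γ →* G) (ρ : Γ →* L)
    (θ' : Γ → ℂ) (B : Set (IrrCharacter G)) (b : Set (IrrCharacter L)) : Prop where
  surjπ : Function.Surjective π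
  surjρ : Function.Surjective ρ
  cen : π.ker ≤ center Γ
  kπ : ¬ p ∣ Nat.card π.ker
  kρ : ¬ p ∣ Nat.card ρ.ker
  chr : IsCharacter Γ θ'
  eqv : ∃ e : B ≃ b, ∀ χ γ, χ.1.1 (π γ) = (e χ).1.1 (ρ γ) * θ' γ

/-- `φ` occurs in `f` with multiplicity prime to `p`. -/
def Lnk (p : ℕ) {C : Type*} [Group C] [Fintype C] (f φ : C → ℂ) : Prop :=
  ∃ m : ℕ, classInner f φ = (m : ℂ) ∧ ¬ p ∣ m

/-- The statement proved by Fong induction. -/
def Mot (p : ℕ) (M : Ideal AlgInt) (G : Type*) [Group G] [Finite G]
    (B : Set (IrrCharacter G)) : Prop :=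
  ∀ P : Subgroup G, IsDefectGroup p M B P → (∀ x ∈ P, ∀ y ∈ P, x * y = y * x) →
    ∀ c : Set (IrrCharacter (normalizer (P : Set G))),
      IsDefectGroup p M c (P.subgroupOf (normalizer (P : Set G))) →
      IsInducedBlock M (normalizer (P : Set G)) c B → PI p M c B

/-- Reduction of a matrix representation modulo `M`. -/
noncomputable def rd (M : Ideal AlgInt) {N n : Type*} [Group N] [Fintype n] [DecidableEq n]
    (R : N →* Matrix n n (V M)) : N →* Matrix n n (F M) :=
  (IsLocalRing.residue (V M)).mapMatrix.toMonoidHom.comp R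

theorem trace_rd (M : Ideal AlgInt) {N n : Type*} [Group N] [Fintype n] [DecidableEq n]
    (R : N →* Matrix n n (V M)) (x : N) : (rd M R x).trace = red M ((R x).trace : ℂ) := by
  rw [red_coe]
  simp [rd, Matrix.trace]

end CL.DG
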