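import Cfsg.Agent.BLK.DG.Defs

/-! A multiplicative cocycle over the fraction field of a UFD is a unit cocycle up to a coboundary.

PROOF. Common denominator `D ≠ 0`: `algebraMap (b δ) = algebraMap D * c δ`. Then
`b δ * σ δ (b δ') = σ δ D * b (δ * δ')` in `A`. Let `g` be a gcd of all `b δ'` (use
`UniqueFactorizationMonoid.toNormalizedGCDMonoid`/`Finset.gcd`, or the characterisation
`∀ x, x ∣ g ↔ ∀ δ, x ∣ b δ`; `Finset.gcd_mul_left'`), `g ≠ 0`; `σ δ g` is a gcd of the
`σ δ (b δ')`. So `b δ * σ δ g` and `σ δ D * g` are associated; `d = g / D`. -/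

namespace CL.DG

theorem gcd_cocycle {A K Δ : Type*} [CommRing A] [IsDomain A] [UniqueFactorizationMonoid A]
    [Field K] [Algebra A K] [IsFractionRing A K] [Group Δ] [Finite Δ] (σ : Δ → A ≃+* A)
    (τ : Δ → K →+* K) (hτ : ∀ δ a, τ δ (algebraMap A K a) = algebraMap A K (σ δ a))
    (c : Δ → K) (h0 : ∀ δ, c δ ≠ 0) (hc : ∀ δ δ', c (δ * δ') = c δ * τ δ (c δ')) :
    ∃ d : K, d ≠ 0 ∧ ∀ δ, ∃ u : Aˣ, c δ * τ δ d = algebraMap A K u * d := by
  classical
  have := Fintype.ofFinite Δ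
  have inj := IsFractionRing.injective A K
  obtain ⟨⟨D, hD⟩, hb⟩ := IsLocalization.exist_integer_multiples_of_finite (nonZeroDivisors A) c
  choose b hb using hb
  simp only [Algebra.smul_def] at hb
  have D0 : algebraMap A K D ≠ 0 := (map_ne_zero_iff _ inj).2 (nonZeroDivisors.ne_zero hD)
  have e : ∀ δ δ', b δ * σ δ (b δ') = σ δ D * b (δ * δ') := fun δ δ' => inj (by
    rw [map_mul, map_mul, ← hτ, ← hτ, hb, hb, hb, hc, map_mul]; ring)
  letI := UniqueFactorizationMonoid.strongNormalizationMonoid (α := A)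
  letI := UniqueFactorizationMonoid.toNormalizedGCDMonoid A
  have g1 : ∀ δ, Finset.univ.gcd b ∣ b δ := fun δ => Finset.gcd_dvd (Finset.mem_univ δ)
  have g2 : ∀ x a, (∀ δ, x ∣ a * b δ) → x ∣ a * Finset.univ.gcd b := fun x a h =>
    (Finset.dvd_gcd fun δ _ => h δ).trans (Finset.gcd_mul_left' _ b a).dvd
  generalize Finset.univ.gcd b = g at g1 g2
  refine ⟨algebraMap A K g / algebraMap A K D, div_ne_zero ((map_ne_zero_iff _ inj).2 fun q => ?_) D0, fun δ => ?_⟩
  · have := hb 1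
    rw [show b 1 = 0 from zero_dvd_iff.1 (q ▸ g1 1), map_zero] at this
    exact mul_ne_zero D0 (h0 1) this.symm
  obtain ⟨u, hu⟩ : Associated (σ δ D * g) (b δ * σ δ g) := associated_of_dvd_dvd (by
    have := map_dvd (σ δ) (g2 ((σ δ).symm (σ δ D * g)) ((σ δ).symm (b δ)) fun δ' => (map_dvd_iff (σ δ)).1 (by
      rw [map_mul (σ δ) _ (b δ'), RingEquiv.apply_symm_apply, RingEquiv.apply_symm_apply, e]
      exact mul_dvd_mul_left _ (g1 _)))
    rwa [map_mul (σ δ) _ g, RingEquiv.apply_symm_apply, RingEquiv.apply_symm_apply] at this)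
    (g2 _ _ fun δ' => by
      rw [← mul_inv_cancel_left δ δ', ← e]
      exact mul_dvd_mul_left _ (map_dvd _ (g1 _)))
  refine ⟨u, ?_⟩
  have := congrArg (algebraMap A K) hu
  rw [map_mul, map_mul, map_mul, hb, ← hτ, ← hτ] at this
  have D1 : τ δ (algebraMap A K D) ≠ 0 := (map_ne_zero _).2 D0
  rw [map_div₀]
  field_simp
  linear_combination -this

end CL.DG
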