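import Cfsg.Agent.BLK.DG.Line
import Cfsg.Agent.BLK.DG.Gcd

/-! The core theorem: a semilinear action on the Tate line produces the linear character. -/

namespace CL.DG

open MvPolynomial

namespace CoreX

variable (F : Type*) {Q : Type*} [Field F] [CommGroup Q]

/-- Renaming the variables. -/
noncomputable def sg (e : MulAut Q) : PA F Q ≃+* PA F Q :=
  (renameEquiv F e.toEquiv).toRingEquiv

/-- Renaming on the fraction field. -/
noncomputable def tau (e : MulAut Q) : PK F Q →+* PK F Q :=
  (IsFractionRing.ringEquivOfRingEquiv (K := PK F Q) (L := PK F Q) (sg F e)).toRingHom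

theorem tau_alg (e : MulAut Q) (a : PA F Q) :
    tau F e (algebraMap (PA F Q) (PK F Q) a) = algebraMap (PA F Q) (PK F Q) (sg F e a) := by
  simp [tau]

theorem sg_apply (e : MulAut Q) (a : PA F Q) : sg F e a = rename e a := rfl

theorem tau_mul (e e' : MulAut Q) (z : PK F Q) : tau F (e * e') z = tau F e (tau F e' z) := by
  have : tau F (e * e') = (tau F e).comp (tau F e') := by
    refine IsLocalization.ringHom_ext (nonZeroDivisors (PA F Q)) (RingHom.ext fun a => ?_)
    simp only [RingHom.comp_apply, tau_alg, sg_apply, rename_rename]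
    rfl
  rw [this]; rfl

theorem tau_one (z : PK F Q) : tau F (1 : MulAut Q) z = z := by
  have : tau F (1 : MulAut Q) = RingHom.id _ := by
    refine IsLocalization.ringHom_ext (nonZeroDivisors (PA F Q)) (RingHom.ext fun a => ?_)
    simp only [RingHom.comp_apply, tau_alg, sg_apply, RingHom.id_apply]
    exact congrArg _ (rename_id_apply a)
  rw [this]; rfl

theorem tau_const (e : MulAut Q) (a : F) :
    tau F e (algebraMap F (PK F Q) a) = algebraMap F (PK F Q) a := by
  rw [IsScalarTower.algebraMap_apply F (PA F Q) (PK F Q), tau_alg, sg_apply, AlgHom.commutes]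

theorem tau_y (e : MulAut Q) (g : Q) : tau F e (yK F g) = yK F (e g) := by
  rw [yK, tau_alg, sg_apply, rename_X, yK]

theorem map_mp {n : Type*} [Fintype n] [DecidableEq n] (e : MulAut Q) (X : Matrix n n F) :
    (mp (PK F Q) X).map (tau F e) = mp (PK F Q) X := by
  ext i j
  simp only [Matrix.map_apply, mp_apply, tau_const]

end CoreX

open CoreX

variable {F Q N C n m : Type*} [Field F] [CommGroup Q] [Fintype Q] [Group N] [Fintype N]
  [Group C] [Fintype C] [Fintype n] [DecidableEq n] [Fintype m] [DecidableEq m]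
  {p : ℕ} [Fact p.Prime] [CharP F p] {α : Q →* MulAut N} {R : N →* Matrix n n F}
  {r : Q →* Matrix n n F} {j : C →* N} {W : C →* Matrix m m F} {κ κ' : F}

theorem core (h : Data p α R r j W κ κ') {Δ : Type*} [Group Δ] [Finite Δ]
    (ρ : Δ →* Matrix n n F) (ω : Δ →* Matrix m m F) (s : Δ →* MulAut Q)
    (hs : ∀ δ g, ρ δ * r g = r (s δ g) * ρ δ)
    (hC : ∀ δ c', ∃ c, R (j c') * ρ δ = ρ δ * R (j c) ∧ W c' * ω δ = ω δ * W c) :
    ∃ ν : Δ →* Fˣ, ∀ δ c (a : F), ρ δ = R (j c) → ω δ = a • W c → s δ = 1 →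
      (ν δ : F) * a = 1 := by
  obtain ⟨x, hxU, hxt, hxn, hx⟩ := line h
  set t := tt (yK F) r with ht
  let act : Δ → Matrix n m (PK F Q) → Matrix n m (PK F Q) := fun δ X =>
    mp (PK F Q) (ρ δ) * X.map (tau F (s δ)) * mp (PK F Q) (ω δ⁻¹)
  have act_mul : ∀ δ δ' X, act (δ * δ') X = act δ (act δ' X) := by
    intro δ δ' X
    have e : X.map (tau F (s δ * s δ')) = (X.map (tau F (s δ'))).map (tau F (s δ)) := by
      ext i k; simp only [Matrix.map_apply, tau_mul]
    simp only [act, Matrix.map_mul, CoreX.map_mp, e, mul_inv_rev, map_mul, Matrix.mul_assoc]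
  have act_one : ∀ X, act 1 X = X := by
    intro X
    have e : X.map (tau F (1 : MulAut Q)) = X := by
      ext i k; simp only [Matrix.map_apply, tau_one]
    simp only [act, e, inv_one, map_one, Matrix.one_mul, Matrix.mul_one]
  have act_add : ∀ δ a X Y, act δ (a • X + Y) = tau F (s δ) a • act δ X + act δ Y := by
    intro δ a X Y
    have e : (a • X + Y).map (tau F (s δ)) =
        tau F (s δ) a • X.map (tau F (s δ)) + Y.map (tau F (s δ)) := by
      ext i k; simp [Matrix.map_apply]
    simp only [act, e, Matrix.mul_add, Matrix.add_mul, Matrix.mul_smul, Matrix.smul_mul]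
  have act_t : ∀ δ X, act δ (t * X) = t * act δ X := by
    intro δ X
    have e1 : t.map (tau F (s δ)) = ∑ g, yK F (s δ g) • mp (PK F Q) (r g - 1) := by
      ext i k
      simp only [ht, tt, Matrix.map_apply, Matrix.sum_apply, Matrix.smul_apply, smul_eq_mul,
        map_sum, map_mul, mp_apply, tau_const, tau_y]
    have e2 : mp (PK F Q) (ρ δ) * t.map (tau F (s δ)) = t * mp (PK F Q) (ρ δ) := by
      rw [e1, ht, tt, ← Equiv.sum_comp (s δ).toEquiv
        (fun g => yK F g • mp (PK F Q) (r g - 1)), Finset.mul_sum, Finset.sum_mul]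
      refine Finset.sum_congr rfl fun g _ => ?_
      rw [Matrix.mul_smul, Matrix.smul_mul, ← map_mul, ← map_mul, mul_sub, sub_mul, hs,
        mul_one, one_mul]
      rfl
    simp only [act, Matrix.map_mul]
    rw [← Matrix.mul_assoc (mp _ (ρ δ)), e2]
    simp only [Matrix.mul_assoc]
  have act_tp : ∀ δ k X, act δ (t ^ k * X) = t ^ k * act δ X := by
    intro δ k X
    induction k with
    | zero => simp
    | succ k ih => rw [pow_succ', Matrix.mul_assoc, act_t, ih, Matrix.mul_assoc]
  have act_U : ∀ δ, ∀ X ∈ UU (PK F Q) (R.comp j) W, act δ X ∈ UU (PK F Q) (R.comp j) W := by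
    intro δ X hX c'
    obtain ⟨c, h1, h2⟩ := hC δ c'
    have h3 : W c * ω δ⁻¹ = ω δ⁻¹ * W c' := by
      calc W c * ω δ⁻¹ = ω δ⁻¹ * (ω δ * W c) * ω δ⁻¹ := by
            rw [← mul_assoc, ← map_mul, inv_mul_cancel, map_one, one_mul]
        _ = ω δ⁻¹ * W c' := by
            rw [← h2, mul_assoc, mul_assoc, ← map_mul, mul_inv_cancel, map_one, mul_one]
    have h4 := congrArg (fun Y => Matrix.map Y (tau F (s δ))) (hX c)
    simp only [Matrix.map_mul, CoreX.map_mp, MonoidHom.comp_apply] at h4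
    simp only [act, MonoidHom.comp_apply]
    rw [← Matrix.mul_assoc, ← Matrix.mul_assoc, ← map_mul, h1, map_mul,
      Matrix.mul_assoc (mp _ (ρ δ)), h4, Matrix.mul_assoc, Matrix.mul_assoc, ← map_mul, h3,
      map_mul]
    simp only [Matrix.mul_assoc]
  have uniq : ∀ (a a' : PK F Q), ∀ v ∈ UU (PK F Q) (R.comp j) W,
      ∀ v' ∈ UU (PK F Q) (R.comp j) W,
      a • x + t ^ (p - 1) * v = a' • x + t ^ (p - 1) * v' → a = a' := by
    intro a a' v hv v' hv' e
    by_contra hne
    refine hxn ((a - a')⁻¹ • (v' - v)) (Submodule.smul_mem _ _ (sub_mem hv' hv)) ?_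
    have : (a - a') • x = t ^ (p - 1) * (v' - v) := by
      rw [sub_smul, Matrix.mul_sub, sub_eq_sub_iff_add_eq_add, e, add_comm]
    rw [Matrix.mul_smul, ← this, smul_smul, inv_mul_cancel₀ (sub_ne_zero.2 hne), one_smul]
  have hex : ∀ δ, ∃ a : PK F Q, ∃ v ∈ UU (PK F Q) (R.comp j) W,
      act δ x = a • x + t ^ (p - 1) * v := fun δ =>
    hx _ (act_U δ x hxU) (by rw [← act_t, hxt]; simp [act])
  choose c v hv hcv using hex
  have hc : ∀ δ δ', c (δ * δ') = c δ * tau F (s δ) (c δ') := by
    intro δ δ'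
    refine uniq _ _ _ (hv (δ * δ')) (tau F (s δ) (c δ') • v δ + act δ (v δ'))
      (add_mem (Submodule.smul_mem _ _ (hv δ)) (act_U _ _ (hv δ'))) ?_
    rw [← hcv, act_mul, hcv δ', act_add, act_tp, hcv δ, smul_add, smul_smul, Matrix.mul_add,
      Matrix.mul_smul, mul_comm (c δ), add_assoc]
  have hc1 : c 1 = 1 := uniq _ _ _ (hv 1) 0 (zero_mem _) (by rw [← hcv, act_one]; simp)
  have h0 : ∀ δ, c δ ≠ 0 := fun δ h0 => by
    have := hc δ δ⁻¹
    rw [mul_inv_cancel, hc1, h0, zero_mul] at this
    exact one_ne_zero this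
  obtain ⟨d, hd, hu⟩ := gcd_cocycle (fun δ => sg F (s δ)) (fun δ => tau F (s δ))
    (fun δ a => tau_alg F _ a) c h0 hc
  have hk : ∀ δ, ∃ k : F, c δ * tau F (s δ) d = algebraMap F (PK F Q) k * d := by
    intro δ
    obtain ⟨u, hu⟩ := hu δ
    obtain ⟨k, -, hk⟩ := MvPolynomial.isUnit_iff_eq_C_of_isReduced.1 u.isUnit
    exact ⟨k, by rw [hu, hk, IsScalarTower.algebraMap_apply F (PA F Q) (PK F Q)]; rfl⟩
  choose k hk using hk
  have hinj := (algebraMap F (PK F Q)).injective
  let ν : Δ →* F :=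
    { toFun := k
      map_one' := hinj (mul_right_cancel₀ hd (by
        rw [← hk, hc1, map_one, tau_one, map_one]))
      map_mul' := fun δ δ' => hinj (mul_right_cancel₀ hd (by
        rw [← hk, hc, map_mul, tau_mul, mul_assoc, ← map_mul, hk δ', map_mul, tau_const,
          mul_left_comm, hk δ, map_mul]
        ring)) }
  refine ⟨ν.toHomUnits, fun δ c' a h1 h2 h3 => hinj ?_⟩
  have e1 : c δ = algebraMap F (PK F Q) (k δ) := by
    have := hk δ
    rw [h3, tau_one] at this
    exact mul_right_cancel₀ hd this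
  have e2 : algebraMap F (PK F Q) a • act δ x = x := by
    have e : x.map (tau F (s δ)) = x := by
      ext i l; simp only [Matrix.map_apply, h3, tau_one]
    have e' := hxU c'
    simp only [MonoidHom.comp_apply] at e'
    simp only [act]
    rw [e, h1, e', Matrix.mul_assoc, ← map_mul, ← Matrix.mul_smul, ← mp_smul, ← Matrix.smul_mul,
      ← h2, ← map_mul, mul_inv_cancel, map_one, map_one, Matrix.mul_one]
  have e3 := uniq (algebraMap F (PK F Q) a * c δ) 1 _
    (Submodule.smul_mem _ (algebraMap F (PK F Q) a) (hv δ)) 0 (zero_mem _) (by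
      rw [Matrix.mul_smul, ← smul_smul, ← smul_add, ← hcv, e2]; simp)
  rw [map_mul, map_one, ← e3, e1, mul_comm]
  rfl

end CL.DG
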