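import Cfsg.Agent.BLK.DG.Step

/-! The Dade-Glauberman extension theorem for an abelian `p`-group of operators.

PROOF. Strong induction on `Nat.card P`, generalizing `A N? H C χ φ` (all but `G`). If
`P = ⊥`: `C = N`, `φ = χ` on `N` (irreducibles with nonzero inner product), `ψ = χ`.
Else `P' = {g ^ p | g ∈ P}` (a subgroup, `P` abelian; proper since an element of order `p`
is in the kernel of `g ↦ g^p`), `N₁ = N ⊓ C(P')`, `A₁ = A ⊓ N(P')`; `C ≤ N₁`,
`C = N₁ ⊓ C(P)`, `H, P ≤ A₁ ≤ N(N₁)`. `⟨χ|C, φ⟩ = ∑_{θ₁ ∈ Irr N₁} ⟨χ|N₁, θ₁⟩ ⟨θ₁|C, φ⟩` with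
natural numbers, so some `θ₁` has both multiplicities prime to `p`; extend `θ₁` by zero to `G`.
Induction for `(A, N, P', A₁, N₁, χ, θ₁)` gives `χ₁` on `A₁` extending `θ₁`; `step` for
`(A₁, N₁, P, H, C, χ₁, φ)`. -/

set_option autoImplicit false

open Cfsg Subgroup CL.Char CL.Blk
open scoped Classical

namespace CL.DG

/-- The `p`-th powers in an abelian subgroup. -/
def Dade.pw {G : Type*} [Group G] (p : ℕ) (P : Subgroup G)
    (hab : ∀ x ∈ P, ∀ y ∈ P, x * y = y * x) : Subgroup G where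
  carrier := {x | ∃ g ∈ P, g ^ p = x}
  one_mem' := ⟨1, P.one_mem, one_pow p⟩
  mul_mem' := by
    rintro _ _ ⟨a, ha, rfl⟩ ⟨b, hb, rfl⟩
    exact ⟨a * b, P.mul_mem ha hb, Commute.mul_pow (hab a ha b hb) p⟩
  inv_mem' := by
    rintro _ ⟨a, ha, rfl⟩
    exact ⟨a⁻¹, P.inv_mem ha, inv_pow a p⟩

theorem Dade.pw_le {G : Type*} [Group G] (p : ℕ) (P : Subgroup G)
    (hab : ∀ x ∈ P, ∀ y ∈ P, x * y = y * x) : Dade.pw p P hab ≤ P := by
  rintro _ ⟨a, ha, rfl⟩
  exact P.pow_mem ha p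

theorem Dade.pw_lt {G : Type*} [Group G] [Finite G] {p : ℕ} (hp : p.Prime) {P : Subgroup G}
    (hP : IsPGroup p P) (hab : ∀ x ∈ P, ∀ y ∈ P, x * y = y * x) (h : P ≠ ⊥) :
    Nat.card (Dade.pw p P hab) < Nat.card P := by
  have := Fact.mk hp
  refine lt_of_le_of_ne (card_le_of_le (Dade.pw_le p P hab)) fun e => ?_
  have e' := eq_of_le_of_card_ge (Dade.pw_le p P hab) e.ge
  have hs : Function.Surjective fun g : P => g ^ p := fun g => by
    obtain ⟨a, ha, h1⟩ : (g : G) ∈ Dade.pw p P hab := e'.symm ▸ g.2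
    exact ⟨⟨a, ha⟩, Subtype.ext h1⟩
  obtain ⟨k, hk⟩ := hP.exists_card_eq
  have hd : p ∣ Nat.card P := by
    rw [hk]
    exact dvd_pow_self p fun h0 => h (by rwa [h0, pow_zero, card_eq_one] at hk)
  obtain ⟨g, hg⟩ := exists_prime_orderOf_dvd_card' p hd
  have h1 : g = 1 := Finite.injective_iff_surjective.2 hs (by
    simp only [one_pow]
    rw [← hg, pow_orderOf_eq_one])
  rw [h1, orderOf_one] at hg
  exact hp.ne_one hg.symm

theorem Dade.norm_pw {G : Type*} [Group G] (p : ℕ) {P : Subgroup G}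
    (hab : ∀ x ∈ P, ∀ y ∈ P, x * y = y * x) :
    normalizer (P : Set G) ≤ normalizer (Dade.pw p P hab : Set G) := fun g hg => by
  have key : ∀ g ∈ normalizer (P : Set G), ∀ x ∈ Dade.pw p P hab,
      g * x * g⁻¹ ∈ Dade.pw p P hab := by
    rintro g hg _ ⟨a, ha, rfl⟩
    exact ⟨g * a * g⁻¹, (mem_normalizer_iff.1 hg a).1 ha, conj_pow⟩
  refine mem_normalizer_iff.2 fun x => ⟨key g hg x, fun h => ?_⟩
  simpa [mul_assoc] using key g⁻¹ (inv_mem hg) _ h

theorem Dade.norm_cent {G : Type*} [Group G] {Q : Subgroup G} :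
    normalizer (Q : Set G) ≤ normalizer (centralizer (Q : Set G) : Set G) := fun g hg => by
  have key : ∀ g ∈ normalizer (Q : Set G), ∀ x ∈ centralizer (Q : Set G),
      g * x * g⁻¹ ∈ centralizer (Q : Set G) := fun g hg x hx => by
    refine mem_centralizer_iff.2 fun y hy => ?_
    have h1 : g⁻¹ * y * g⁻¹⁻¹ ∈ Q := (mem_normalizer_iff.1 (inv_mem hg) y).1 hy
    have h2 := mem_centralizer_iff.1 hx _ h1
    calc y * (g * x * g⁻¹) = g * (g⁻¹ * y * g⁻¹⁻¹ * x) * g⁻¹ := by group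
      _ = g * x * g⁻¹ * y := by rw [h2]; group
  refine mem_normalizer_iff.2 fun x => ⟨key g hg x, fun h => ?_⟩
  simpa [mul_assoc] using key g⁻¹ (inv_mem hg) _ h

/-- A link factors through an intermediate subgroup. -/
theorem Dade.mid {G : Type*} [Group G] {p : ℕ} {C N : Subgroup G} [Fintype C] [Fintype N]
    (h : C ≤ N) {χ φ : G → ℂ} (hχ : IsCharacter N fun n => χ n)
    (hφ : IsIrrCharacter C fun c => φ c) (hl : Lnk p (fun c : C => χ c) fun c => φ c) :
    ∃ θ : G → ℂ, IsIrrCharacter N (fun n => θ n) ∧ Lnk p (fun n : N => χ n) (fun n => θ n) ∧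
      Lnk p (fun c : C => θ c) fun c => φ c := by
  obtain ⟨m, hm, hp⟩ := hl
  obtain ⟨a, ha, e⟩ := hχ.exists_nat_coeffs
  choose b hb using fun θ : IrrCharacter N =>
    (θ.2.isCharacter.comp (inclusion h)).exists_nat_inner hφ.isCharacter
  have e1 : (fun c : C => χ c) =
      ∑ θ : IrrCharacter N, (a θ : ℂ) • fun c : C => θ.1 (inclusion h c) := by
    funext c
    have := congrFun e (inclusion h c)
    simpa [Finset.sum_apply] using this
  rw [e1, classInner_sum_left] at hm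
  simp only [classInner_smul_left] at hm
  have e2 : ∑ θ : IrrCharacter N, a θ * b θ = m := by
    have : ((∑ θ : IrrCharacter N, a θ * b θ : ℕ) : ℂ) = m := by
      rw [← hm]
      push_cast
      exact Finset.sum_congr rfl fun θ _ => by rw [← hb θ]
    exact_mod_cast this
  obtain ⟨θ, hθ⟩ : ∃ θ, ¬ p ∣ a θ * b θ := by
    by_contra hn
    push Not at hn
    exact hp (e2 ▸ Finset.dvd_sum fun θ _ => hn θ)
  have e3 : (fun n : N => (fun g : G => if hg : g ∈ N then θ.1 ⟨g, hg⟩ else 0) n) = θ.1 := by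
    funext n
    simp
  refine ⟨fun g => if hg : g ∈ N then θ.1 ⟨g, hg⟩ else 0, by rw [e3]; exact θ.2,
    ⟨a θ, by rw [e3]; exact ha θ, fun hd => hθ (hd.mul_right _)⟩,
    b θ, ?_, fun hd => hθ (hd.mul_left _)⟩
  rw [← hb θ]
  congr 1
  funext c
  simp only [dif_pos (h c.2)]
  rfl

theorem dade {p : ℕ} {M : Ideal AlgInt} (hM : IsPModular p M) {G : Type*} [Group G] [Finite G]
    {A N P H C : Subgroup G} [Fintype C] (hNA : N ≤ A) (hAN : A ≤ normalizer (N : Set G))
    (hN : ¬ p ∣ Nat.card N) (hP : IsPGroup p P) (hab : ∀ x ∈ P, ∀ y ∈ P, x * y = y * x)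
    (hPA : P ≤ A) (hHA : H ≤ A) (hHP : H ≤ normalizer (P : Set G))
    (hC : C = N ⊓ centralizer (P : Set G)) (hCH : C ≤ H) {χ φ : G → ℂ}
    (hχ : IsCharacter A fun a => χ a) (hχN : IsIrrCharacter N fun n => χ n)
    (hφ : IsIrrCharacter C fun c => φ c) (hl : Lnk p (fun c : C => χ c) fun c => φ c) :
    ∃ ψ : G → ℂ, IsCharacter H (fun h => ψ h) ∧ ∀ c ∈ C, ψ c = φ c := by
  induction hn : Nat.card P using Nat.strong_induction_on generalizing A N P H C χ φ with
  | _ n ih =>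
  by_cases h0 : P = ⊥
  · have e : C = N := by
      rw [hC, h0]
      exact inf_eq_left.2 fun x _ => mem_centralizer_iff.2 fun y hy => by
        rw [mem_bot.1 hy, one_mul, mul_one]
    subst e
    obtain ⟨m, hm, hp⟩ := hl
    have e := hχN.eq_of_inner_ne_zero hφ (by
      rw [hm]
      exact Nat.cast_ne_zero.2 fun h => hp (h ▸ dvd_zero p))
    exact ⟨χ, hχ.comp (inclusion hHA), fun c hc => congrFun e ⟨c, hc⟩⟩
  have hle := Dade.pw_le p P hab
  have := Fintype.ofFinite (N ⊓ centralizer (Dade.pw p P hab : Set G) : Subgroup G)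
  have hC1 : C ≤ N ⊓ centralizer (Dade.pw p P hab : Set G) := by
    rw [hC]
    exact inf_le_inf_left N (centralizer_le hle)
  have hNA1 : N ⊓ centralizer (Dade.pw p P hab : Set G) ≤
      A ⊓ normalizer (Dade.pw p P hab : Set G) :=
    inf_le_inf hNA (centralizer_le_normalizer _)
  obtain ⟨θ, hθ, l1, l2⟩ := Dade.mid hC1 (hχN.isCharacter.comp (inclusion inf_le_left)) hφ hl
  obtain ⟨χ₁, h1, h2⟩ := ih _ (hn ▸ Dade.pw_lt hM.1 hP hab h0) hNA hAN hN (hP.to_le hle)
    (fun x hx y hy => hab x (hle hx) y (hle hy)) (hle.trans hPA) inf_le_left inf_le_right rfl hNA1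
    hχ hχN hθ l1 rfl
  refine step hM hNA1 ?_ (fun hd => hN (hd.trans (card_dvd_of_le inf_le_left))) hP hab
    (le_inf hPA (le_normalizer.trans (Dade.norm_pw p hab)))
    (le_inf hHA (hHP.trans (Dade.norm_pw p hab))) hHP ?_ hCH ?_ h1 ?_ hφ ?_
  · exact (inf_le_inf hAN Dade.norm_cent).trans inf_normalizer_le_normalizer_inf
  · rw [hC, inf_assoc, inf_eq_right.2 (centralizer_le hle)]
  · exact fun g hg => mem_centralizer_iff.2 fun y hy =>
      (mem_centralizer_iff.1 hy.2 _ ⟨g, hg, rfl⟩).symm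
  · rw [show (fun n : (N ⊓ centralizer (Dade.pw p P hab : Set G) : Subgroup G) => χ₁ n) =
      fun n : (N ⊓ centralizer (Dade.pw p P hab : Set G) : Subgroup G) => θ n from
      funext fun n => h2 n n.2]
    exact hθ
  · rw [show (fun c : C => χ₁ c) = fun c : C => θ c from funext fun c => h2 c (hC1 c.2)]
    exact l2

end CL.DG
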