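import Cfsg.Agent.BLK.DG.Defs

/-! The multiplicity space has dimension prime to `p`.

PROOF of `dimU`. `Π X = (card C)⁻¹ • ∑ c, mp (R' c) * X * mp (W c⁻¹)` is a projection onto
`UU` (`LinearMap.IsProj`), `LinearMap.IsProj.trace : trace Π = finrank UU`, and the trace of
`X ↦ M * X * M'` on `Matrix n m K` is `tr M * tr M'` (basis `Matrix.stdBasis`, or
`LinearMap.trace_eq_matrix_trace`). So `(finrank UU : K) = (card C)⁻¹ * algebraMap link ≠ 0`. -/

namespace CL.DG

namespace Dim

variable {K n m : Type*} [Field K] [Fintype n] [DecidableEq n] [Fintype m] [DecidableEq m]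

/-- `X ↦ M * X * M'` -/
def lr (M : Matrix n n K) (M' : Matrix m m K) : Module.End K (Matrix n m K) where
  toFun X := M * X * M'
  map_add' X Y := by rw [Matrix.mul_add, Matrix.add_mul]
  map_smul' a X := by rw [Matrix.mul_smul, Matrix.smul_mul]; rfl

theorem lr_apply (M : Matrix n n K) (M' : Matrix m m K) (X : Matrix n m K) :
    lr M M' X = M * X * M' := rfl

theorem trace_lr (M : Matrix n n K) (M' : Matrix m m K) :
    LinearMap.trace K _ (lr M M') = M.trace * M'.trace := by
  rw [LinearMap.trace_eq_matrix_trace K (Matrix.stdBasis K n m), Matrix.trace, Matrix.trace,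
    Matrix.trace, Finset.sum_mul_sum, Fintype.sum_prod_type]
  refine Finset.sum_congr rfl fun i _ => Finset.sum_congr rfl fun j _ => ?_
  rw [Matrix.diag_apply, LinearMap.toMatrix_apply, Matrix.stdBasis_eq_single, lr_apply]
  have : ∀ X : Matrix n m K, (Matrix.stdBasis K n m).repr X (i, j) = X i j := by
    intro X
    simp [Matrix.stdBasis]
  rw [this]
  simp [Matrix.mul_apply, Matrix.single, ite_and]

end Dim

/-- The averaging projection onto `UU`, with its trace. -/
theorem dimU {F K C n m : Type*} [Field F] [Field K] [Algebra F K] [Group C] [Fintype C]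
    [Fintype n] [DecidableEq n] [Fintype m] [DecidableEq m] (R' : C →* Matrix n n F)
    (W : C →* Matrix m m F) (hC : (Fintype.card C : F) ≠ 0)
    (link : ∑ c, (R' c).trace * (W c⁻¹).trace ≠ 0) :
    (Module.finrank K (UU K R' W) : K) ≠ 0 ∧
      ∃ Pr : Module.End K (Matrix n m K), (∀ X, Pr X ∈ UU K R' W) ∧
        (∀ X ∈ UU K R' W, Pr X = X) ∧
        (∀ c (X : Matrix n m K), Pr (mp K (R' c) * X) = Pr (X * mp K (W c))) ∧
        ∀ (M : Matrix n n K), (∀ c, Commute (mp K (R' c)) M) →
          ∀ X : Matrix n m K, Pr (M * X) = M * Pr X := by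
  have hK : (Fintype.card C : K) ≠ 0 := by
    rw [← map_natCast (algebraMap F K)]
    exact (map_ne_zero _).2 hC
  let Pr : Module.End K (Matrix n m K) :=
    (Fintype.card C : K)⁻¹ • ∑ c, Dim.lr (mp K (R' c)) (mp K (W c⁻¹))
  have ap : ∀ X, Pr X = (Fintype.card C : K)⁻¹ • ∑ c, mp K (R' c) * X * mp K (W c⁻¹) := fun X => by
    simp only [Pr, LinearMap.smul_apply, LinearMap.sum_apply, Dim.lr_apply]
  have h1 : ∀ X, Pr X ∈ UU K R' W := fun X => by
    rw [ap]
    refine Submodule.smul_mem _ _ (mem_UU.2 fun d => ?_)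
    rw [Matrix.mul_sum, Matrix.sum_mul]
    refine Fintype.sum_equiv (Equiv.mulLeft d) _ _ fun c => ?_
    rw [Equiv.coe_mulLeft, Matrix.mul_assoc _ _ (mp K (W d)), ← map_mul, ← map_mul, mul_inv_rev,
      inv_mul_cancel_right, map_mul, map_mul]
    simp only [Matrix.mul_assoc]
  have h2 : ∀ X ∈ UU K R' W, Pr X = X := fun X hX => by
    rw [ap]
    have : ∀ c, mp K (R' c) * X * mp K (W c⁻¹) = X := fun c => by
      rw [mem_UU.1 hX c, Matrix.mul_assoc, ← map_mul, ← map_mul, mul_inv_cancel, map_one, map_one,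
        Matrix.mul_one]
    simp only [this, Finset.sum_const, Finset.card_univ]
    rw [← Nat.cast_smul_eq_nsmul K, smul_smul, inv_mul_cancel₀ hK, one_smul]
  refine ⟨?_, Pr, h1, h2, fun d X => ?_, fun M hM X => ?_⟩
  · rw [← (LinearMap.IsProj.mk h1 h2 : LinearMap.IsProj (UU K R' W) Pr).trace]
    simp only [Pr, map_smul, map_sum, Dim.trace_lr, trace_mp, smul_eq_mul, ← map_mul]
    rw [← map_sum]
    exact mul_ne_zero (inv_ne_zero hK) ((map_ne_zero _).2 link)
  · rw [ap, ap]
    congr 1
    refine Fintype.sum_equiv (Equiv.mulRight d) _ _ fun c => ?_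
    rw [Equiv.coe_mulRight, Matrix.mul_assoc _ (X * _), Matrix.mul_assoc X, ← map_mul, ← map_mul,
      mul_inv_rev, mul_inv_cancel_left, map_mul, map_mul]
    simp only [Matrix.mul_assoc]
  · rw [ap, ap, Matrix.mul_smul, Matrix.mul_sum]
    congr 1
    refine Finset.sum_congr rfl fun c _ => ?_
    rw [← Matrix.mul_assoc, (hM c).eq]
    simp only [Matrix.mul_assoc]

end CL.DG
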