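import Cfsg.Agent.BLK.DG.CDefs

/-! Fourier inversion modulo `M`, Schur's lemma, Teichmüller lifts.

PROOF of `fi_red`. Over `ℂ` (`R' = R` mapped): `∑ x, tr (R' x⁻¹ * X) • R' x = (|N| / d) • X`,
`d = card n = θ 1` (Schur orthogonality relations; or Burnside: every `X` is a combination of
the `R' g`, and for `X = R' g` it is `R' g * ∑ θ x⁻¹ • R' x` with the central idempotent; search
CHAR for `Burnside`, `sum_inv_smul`, `schur`). `d ∣ |N|` (`charDegree_dvd_card`), `κ₀ = |N| / d`
is a natural number prime to `p`; the identity holds over `V M` (injectivity), apply the residue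
map, every matrix over `F M` lifts. `FI.scalar`: `κ • single i j 1` is a combination of the
`R x`; `Matrix.mem_range_scalar_iff_commute_single'`. `teich`: `m` = `p'`-part of `|Δ|`
(`Nat.exists_eq_pow_mul_and_not_dvd`, Frobenius injective), `exists_pow_eq_one_red_eq`,
`eq_of_red_eq_of_pow_eq_one` for multiplicativity. -/

set_option autoImplicit false

open Cfsg Subgroup CL.Char CL.Blk
open scoped Classical

namespace CL.DG

variable {p : ℕ} {M : Ideal AlgInt}

theorem FIred.schur {N n : Type*} [Group N] [Fintype N] [Fintype n] [DecidableEq n] (R : N →* Matrix n n ℂ)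
    (h : IsIrrCharacter N fun x => (R x).trace) : ∃ k : ℕ, k ∣ Nat.card N ∧ ∀ a b c d,
      ∑ g, R g d b * R g⁻¹ c a = if b = c ∧ d = a then (k : ℂ) else 0 := by
  let ρ : Representation ℂ N (n → ℂ) :=
    (Matrix.toLinAlgEquiv' (R := ℂ)).toRingEquiv.toRingHom.toMonoidHom.comp R
  have e : ∀ g, ρ g = Matrix.toLin' (R g) := fun _ => rfl
  have : ρ.IsIrreducible := isIrreducible_of_character ρ (by
    convert h using 2 with g
    exact Matrix.trace_toLin'_eq _)
  obtain ⟨k, hk⟩ := finrank_dvd_card ρ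
  refine ⟨k, ⟨_, hk.trans (mul_comm _ _)⟩, fun a b c d => ?_⟩
  have h0 := congrArg LinearMap.toMatrix' (CL.Char.sum_conj_eq_smul ρ (Matrix.toLin' (Matrix.single b c 1)))
  rw [map_sum, map_smul, hk, Nat.cast_mul, mul_assoc, mul_div_cancel_left₀ _ (rep_finrank_ne_zero ρ)] at h0
  have h1 := congrFun (congrFun h0 d) a
  simp only [e, LinearMap.toMatrix'_mul, LinearMap.toMatrix'_toLin', LinearMap.toMatrix'_one,
    Matrix.sum_apply, Matrix.smul_apply, Matrix.trace_toLin'_eq] at h1
  have h2 : ∀ g : N, (R g * Matrix.single b c (1 : ℂ) * R g⁻¹) d a = R g d b * R g⁻¹ c a := by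
    intro g
    rw [Matrix.mul_apply, Finset.sum_eq_single c]
    · rw [Matrix.mul_single_apply_same, mul_one]
    · intro x _ hx
      rw [Matrix.mul_single_apply_of_ne _ _ _ _ _ hx, zero_mul]
    · simp
  simp only [h2] at h1
  rw [h1]
  by_cases hbc : b = c
  · subst hbc
    by_cases hda : d = a <;> simp [hda, Matrix.one_apply]
  · simp [hbc, Matrix.trace_single_eq_of_ne _ _ _ hbc]

theorem fi_red (hM : IsPModular p M) {N n : Type*} [Group N] [Fintype N] [Fintype n]
    [DecidableEq n] (hN : ¬ p ∣ Nat.card N) (R : N →* Matrix n n (V M))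
    (hirr : IsIrrCharacter N fun x => ((R x).trace : ℂ)) : ∃ κ, FI (rd M R) κ := by
  obtain ⟨k, hk, h⟩ := FIred.schur ((V M).subtype.mapMatrix.toMonoidHom.comp R) (by
    convert hirr using 2 with x
    simp [Matrix.trace])
  have h1 : ∀ a b c d, ∑ g, R g d b * R g⁻¹ c a = if b = c ∧ d = a then (k : V M) else 0 := fun a b c d =>
    Subtype.ext (by
      have := h a b c d
      split_ifs at this ⊢ <;> simpa using this)
  have h2 : ∀ a b c d, ∑ g, rd M R g d b * rd M R g⁻¹ c a = if b = c ∧ d = a then (k : F M) else 0 :=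
    fun a b c d => by
      have := congrArg (IsLocalRing.residue (V M)) (h1 a b c d)
      rw [map_sum, apply_ite (IsLocalRing.residue (V M)), map_natCast, map_zero] at this
      simpa [rd] using this
  refine ⟨k, fun e => hN (((natCast_F_eq_zero_iff hM k).1 e).trans hk), fun X => ?_⟩
  ext i j
  simp only [Matrix.sum_apply, Matrix.smul_apply, Matrix.trace, Matrix.diag_apply, Matrix.mul_apply, smul_eq_mul,
    Finset.sum_mul]
  rw [Finset.sum_comm, Finset.sum_eq_single j, Finset.sum_comm, Finset.sum_eq_single i]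
  · rw [← (if_pos ⟨rfl, rfl⟩ : (if j = j ∧ i = i then (k : F M) else 0) = k), ← h2, Finset.sum_mul]
    exact Finset.sum_congr rfl fun g _ => by ring
  · intro a _ ha
    have := h2 a j j i
    rw [if_neg fun e => ha e.2.symm] at this
    rw [← zero_mul (X a j), ← this, Finset.sum_mul]
    exact Finset.sum_congr rfl fun g _ => by ring
  · simp
  · intro c _ hc
    rw [Finset.sum_comm]
    refine Finset.sum_eq_zero fun a _ => ?_
    have := h2 a j c i
    rw [if_neg fun e => hc e.1.symm] at this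
    rw [← zero_mul (X a c), ← this, Finset.sum_mul]
    exact Finset.sum_congr rfl fun g _ => by ring
  · simp

theorem FI.scalar {F N n : Type*} [Field F] [Group N] [Fintype N] [Fintype n] [DecidableEq n]
    {R : N →* Matrix n n F} {κ : F} (h : FI R κ) {X : Matrix n n F}
    (hX : ∀ x, Commute (R x) X) : ∃ a : F, X = a • (1 : Matrix n n F) := by
  obtain ⟨a, ha⟩ := Matrix.mem_range_scalar_iff_commute_single'.2 fun i j => (show Commute (Matrix.single i j 1) X by
    rw [← one_smul F (Matrix.single i j (1 : F)), ← inv_mul_cancel₀ h.1, mul_smul, ← h.2]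
    exact (Commute.sum_left _ _ _ fun x _ => (hX x).smul_left _).smul_left _)
  exact ⟨a, by rw [← ha, Matrix.scalar_apply, Matrix.smul_one_eq_diagonal]⟩

theorem teich (hM : IsPModular p M) {Δ : Type*} [Group Δ] [Finite Δ] (ν : Δ →* (F M)ˣ) :
    ∃ (ν' : Δ →* ℂˣ) (m : ℕ), ¬ p ∣ m ∧ (∀ δ, (ν' δ : ℂ) ^ m = 1) ∧
      ∀ δ, red M (ν' δ : ℂ) = (ν δ : F M) := by
  have hp := hM.1
  have := Fact.mk hp
  have := charP_F hM
  obtain ⟨e, m, hm, he⟩ := Nat.exists_eq_pow_mul_and_not_dvd (Nat.card_pos (α := Δ)).ne' p hp.ne_one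
  have m0 : m ≠ 0 := fun e => hm (e ▸ dvd_zero p)
  have h1 : ∀ δ, (ν δ : F M) ^ m = 1 := fun δ => by
    have : ((ν δ : F M) ^ m) ^ p ^ e = 1 ^ p ^ e := by
      rw [← pow_mul, mul_comm, ← he, ← Units.val_pow_eq_pow_val, ← map_pow, pow_card_eq_one', map_one, one_pow,
        Units.val_one]
    exact (iterateFrobenius (F M) p e).injective this
  choose ε h2 h3 using fun δ => exists_pow_eq_one_red_eq m0 (h1 δ)
  have h4 : ∀ δ, ε δ ≠ 0 := fun δ e => by simpa [e, m0] using h2 δ
  refine ⟨MonoidHom.mk' (fun δ => Units.mk0 (ε δ) (h4 δ)) fun a b => Units.ext ?_, m, hm, h2, h3⟩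
  refine eq_of_red_eq_of_pow_eq_one hM hm hm (h2 _) (by
    rw [Units.val_mul, mul_pow, Units.val_mk0, Units.val_mk0, h2, h2, mul_one]) ?_
  simp only [Units.val_mul, Units.val_mk0]
  rw [red_mul (mem_V_of_pow_eq_one m0 (h2 a)) (mem_V_of_pow_eq_one m0 (h2 b)), h3, h3, h3, map_mul, Units.val_mul]

end CL.DG
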