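import Cfsg.Agent.BLK.DG.CDefs

/-! A perfect bijection gives the three conclusions of S4643. -/

set_option autoImplicit false

open Cfsg Subgroup CL.Char CL.Blk
open scoped Classical

namespace CL.DG

theorem FinX.orth {H ι : Type*} [Group H] [Fintype H] {v : ι → IrrCharacter H}
    (hv : Function.Injective v) (i j : ι) :
    ∑ y, (v i).1 y * (v j).1 y⁻¹ = if i = j then (Nat.card H : ℂ) else 0 := by
  have h := card_mul_classInner (v i).1 (v j).1
  simp only [(v j).2.isCharacter.apply_inv]
  rw [← h]
  split_ifs with e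
  · rw [e, (v j).2.inner_self, mul_one]
  · rw [(v i).2.inner_of_ne (v j).2 (fun e' => e (hv (Subtype.ext e'))), mul_zero]

theorem FinX.rel {G H ι : Type*} [Group G] [Group H] [Finite H] [Fintype ι] {p : ℕ}
    {u : ι → IrrCharacter G} {v : ι → IrrCharacter H} (hv : Function.Injective v)
    (hK : ∀ x y, ¬ p ∣ orderOf x → p ∣ orderOf y → ∑ i, (u i).1 x * (v i).1 y = 0) (a : ι → ℂ)
    (ha : ∑ i, a i • pRegularPart p (v i).1 = 0) : ∑ i, a i • pRegularPart p (u i).1 = 0 := by
  have := Fintype.ofFinite H
  funext x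
  simp only [Finset.sum_apply, Pi.smul_apply, smul_eq_mul, pRegularPart, Pi.zero_apply]
  by_cases hx : IsPRegular p x
  swap
  · simp [hx]
  simp only [if_pos hx]
  have h1 : ∑ y, (∑ i, (u i).1 x * (v i).1 y) * (∑ j, a j * (v j).1 y⁻¹) = 0 := by
    refine Finset.sum_eq_zero fun y _ => ?_
    by_cases hy : p ∣ orderOf y
    · rw [hK x y hx hy, zero_mul]
    · have h2 := congrFun ha y⁻¹
      have hy' : IsPRegular p y⁻¹ := by rwa [IsPRegular, orderOf_inv]
      simp only [Finset.sum_apply, Pi.smul_apply, smul_eq_mul, pRegularPart, Pi.zero_apply,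
        if_pos hy'] at h2
      rw [h2, mul_zero]
  have h2 : ∑ y, (∑ i, (u i).1 x * (v i).1 y) * (∑ j, a j * (v j).1 y⁻¹) =
      (Nat.card H : ℂ) * ∑ i, a i * (u i).1 x := by
    simp only [Finset.sum_mul_sum]
    rw [Finset.sum_comm, Finset.mul_sum]
    refine Finset.sum_congr rfl fun i _ => ?_
    rw [Finset.sum_comm]
    have : ∀ j, ∑ y, (u i).1 x * (v i).1 y * (a j * (v j).1 y⁻¹) =
        (u i).1 x * a j * if i = j then (Nat.card H : ℂ) else 0 := fun j => by
      rw [← FinX.orth hv, Finset.mul_sum]
      exact Finset.sum_congr rfl fun y _ => by ring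
    simp only [this, mul_ite, mul_zero, Finset.sum_ite_eq, Finset.mem_univ, if_true]
    ring
  rw [h2] at h1
  exact (mul_eq_zero.1 h1).resolve_left (card_ne_zero H)

theorem FinX.rank {V W ι : Type*} [AddCommGroup V] [Module ℂ V] [AddCommGroup W] [Module ℂ W]
    [Fintype ι] {u : ι → V} {v : ι → W}
    (h : ∀ a : ι → ℂ, ∑ i, a i • u i = 0 ↔ ∑ i, a i • v i = 0) :
    Module.finrank ℂ (Submodule.span ℂ (Set.range u)) =
      Module.finrank ℂ (Submodule.span ℂ (Set.range v)) := by
  have e : LinearMap.ker (Fintype.linearCombination ℂ u) =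
      LinearMap.ker (Fintype.linearCombination ℂ v) := by
    ext a
    simp only [LinearMap.mem_ker, Fintype.linearCombination_apply, h]
  have h1 := (Fintype.linearCombination ℂ u).finrank_range_add_finrank_ker
  have h2 := (Fintype.linearCombination ℂ v).finrank_range_add_finrank_ker
  rw [Fintype.range_linearCombination] at h1 h2
  rw [e] at h1
  omega

theorem PI.final {G H : Type*} [Group G] [Finite G] [Group H] [Finite H] {p : ℕ}
    {M : Ideal AlgInt} (hM : IsPModular p M) {c : Set (IrrCharacter H)}
    {B : Set (IrrCharacter G)} (h : PI p M c B) :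
    Nat.card c = Nat.card B ∧ blockRank p c = blockRank p B ∧
      ∃ I ε, IsPerfectIsometry p M c B I ε := by
  obtain ⟨I, h⟩ := h
  have e : ∀ x y, signedBijectionKernel c I (fun _ => 1) x y = pker c I x y := fun x y => by
    simp [signedBijectionKernel, finsum_mem_block_eq, pker]
  refine ⟨Nat.card_congr (h.bij.equiv I), ?_, I, fun _ => 1, h.bij, fun _ _ => Or.inl rfl,
    isPerfectFun_kernel hM (fun y => ?_) (fun x => ?_) fun x y hxy => ?_⟩
  · have k : ∀ x y, ∑ η : c, (I η).1 x * η.1.1 y = pker c I x y := fun x y => by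
      rw [pker, ← finsum_mem_block_eq, finsum_mem_block_eq_subtype]
    have i1 : Function.Injective (fun η : c => η.1) := Subtype.val_injective
    have i2 : Function.Injective (fun η : c => I η) := fun a b hab =>
      Subtype.ext (h.bij.injOn a.2 b.2 hab)
    have := FinX.rank (u := fun η : c => pRegularPart p η.1.1)
      (v := fun η : c => pRegularPart p (I η).1) fun a =>
      ⟨FinX.rel i1 (fun x y hx hy => by rw [k, h.sep x y (by tauto)]) a,
        FinX.rel i2 (fun y x hy hx => by
          rw [← h.sep x y (by tauto), ← k]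
          exact Finset.sum_congr rfl fun _ _ => mul_comm _ _) a⟩
    rw [blockRank, blockRank, ← h.bij.image_eq, Set.image_image, Set.image_eq_range,
      Set.image_eq_range]
    exact this
  · simp only [e]; exact h.left y
  · simp only [e]; exact h.right x
  · rw [e, h.sep x y hxy]

end CL.DG
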