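import Cfsg.Agent.BLK.DG.CDefs

/-! Gallagher's correspondence through a cover.

PROOF. Copy the end of `exists_isFC` and `IsFC.exists_equiv` (BLK/FongCover) without `pow`,
`inj`. `φ` is `G`-invariant (`sec`, `val`, `ψ` is a class function). `ψ` restricted to
`ρ.ker` is `φ ∘ π` along the surjection `ρ.ker → K`, so irreducible (`comp_surjective`). For
`z ∈ π.ker` (central): `ψ z * μ (ρ z) = φ 1 = ψ 1` forces `ψ (z * γ) * μ (ρ z) = ψ γ` (`ψ` is
irreducible, `z` acts by a scalar). Then `gallagher_surj`, `gallagher_irr`, `exists_deflate`,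
`exists_apply_mul_ne_zero`. -/

set_option autoImplicit false

open Cfsg Subgroup CL.Char CL.Blk
open scoped Classical

namespace CL.DG

theorem side_of_ext {G Γ L : Type*} [Group G] [Finite G] [Group Γ] [Finite Γ] [Group L]
    [Finite L] {p : ℕ} {K : Subgroup G} [K.Normal] [Fintype K] {φ : K → ℂ}
    (hφ : IsIrrCharacter K φ) {π : Γ →* G} {ρ : Γ →* L} {ψ : Γ → ℂ} {Z : Subgroup L} [Fintype Z]
    {μ : Z →* ℂˣ} (hπ : Function.Surjective π) (hρ : Function.Surjective ρ)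
    (mem_iff : ∀ γ, π γ ∈ K ↔ ρ γ ∈ Z) (hZ : Z ≤ center L) (cen : π.ker ≤ center Γ)
    (kπ : ¬ p ∣ Nat.card π.ker) (kρ : ¬ p ∣ Nat.card ρ.ker) (hψ : IsCharacter Γ ψ)
    (val : ∀ γ (h : π γ ∈ K) (h' : ρ γ ∈ Z), ψ γ * μ ⟨ρ γ, h'⟩ = φ ⟨π γ, h⟩)
    (sec : ∀ n ∈ K, ∃ x, π x = n ∧ ρ x = 1) :
    Side p π ρ ψ (overSet K φ) (overSet Z fun z => (μ z : ℂ)) := by
  have := Fintype.ofFinite ρ.ker
  have z1 : ∀ {x : Γ}, ρ x = 1 → ρ x ∈ Z := fun e => e ▸ one_mem Z
  have kv : ∀ x (e : ρ x = 1), ψ x = φ ⟨π x, (mem_iff x).2 (z1 e)⟩ := fun x e => by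
    rw [← val x _ (z1 e), show (⟨ρ x, z1 e⟩ : Z) = 1 from Subtype.ext e, map_one, Units.val_one, mul_one]
  have hinv : inertia K φ = ⊤ := inertia_eq_top_iff.2 fun g n => by
    obtain ⟨x, hx, e⟩ := sec n n.2
    obtain ⟨γ, rfl⟩ := hπ g
    have h1 := kv x e
    have h2 := kv (γ * x * γ⁻¹) (by rw [map_mul, map_mul, e, mul_one, map_inv, mul_inv_cancel])
    rw [hψ.isClassFunction, h1] at h2
    simp only [map_mul, map_inv, hx] at h2
    exact h2.symm
  let f : ρ.ker →* K := (π.comp ρ.ker.subtype).codRestrict K fun x => (mem_iff x).2 (z1 x.2)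
  have hirr : IsIrrCharacter ρ.ker fun x => ψ x := by
    rw [show (fun x : ρ.ker => ψ x) = fun x => φ (f x) from funext fun x => kv x x.2]
    exact hφ.comp_surjective f fun n => let ⟨x, hx, e⟩ := sec n n.2; ⟨⟨x, e⟩, Subtype.ext hx⟩
  have hθ' : IsIrrCharacter Γ ψ := by
    have := gallagher_irr hψ hirr isIrrCharacter_one fun _ _ => rfl
    convert this using 1
    funext x
    simp
  have zk : ∀ {z : Γ}, π z = 1 → ρ z ∈ Z := fun e => (mem_iff _).1 (e ▸ one_mem K)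
  have hkv : ∀ z (e : π z = 1), ψ z * μ ⟨ρ z, zk e⟩ = ψ 1 := fun z e => by
    rw [val z (e ▸ one_mem K), kv 1 (map_one ρ)]
    congr 1
    exact Subtype.ext (e.trans (map_one π).symm)
  have hn : Z.Normal := ⟨fun z hz g => by rw [mem_center_iff.1 (hZ hz) g, mul_inv_cancel_right]; exact hz⟩
  have ov : ∀ {β : IrrCharacter L}, β ∈ overSet Z (fun z => (μ z : ℂ)) ↔
      ∀ z : Z, (β : L → ℂ) z = (β : L → ℂ) 1 * μ z := fun {β} => by
    rw [mem_overSet]
    constructor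
    · intro h1 z
      have h2 := clifford_of_invariant β.2 (isIrrCharacter_hom μ) (eq_top_iff.2 fun g _ =>
        centralizer_le_inertia _ fun z hz => (mem_center_iff.1 (hZ hz) g).symm) h1
      have h3 := congrFun h2 1
      simp only [OneMemClass.coe_one, Pi.smul_apply, map_one, Units.val_one, smul_eq_mul, mul_one] at h3
      rw [h3]
      exact congrFun h2 z
    · intro h1
      have : (fun z : Z => (β : L → ℂ) z) = (β : L → ℂ) 1 • fun z : Z => (μ z : ℂ) := funext h1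
      rw [this, classInner_smul_left, (isIrrCharacter_hom μ).inner_self, mul_one]
      exact β.2.one_ne_zero
  have h1 : ∀ χ : overSet K φ, ∃ β : overSet Z (fun z => (μ z : ℂ)), ∀ γ, χ.1.1 (π γ) = β.1.1 (ρ γ) * ψ γ := by
    intro χ
    have hc := clifford_of_invariant χ.1.2 hφ hinv χ.2
    have hc0 := χ.2
    rw [mem_overSet] at hc0
    generalize classInner (fun n : K => χ.1.1 n) φ = c at hc hc0
    obtain ⟨β, hβ, hβ1, hβ2⟩ := gallagher_surj hψ hirr (χ.1.2.comp_surjective π hπ) (by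
      have : (fun n : ρ.ker => χ.1.1 (π n)) = c • fun n : ρ.ker => ψ n := by
        funext x
        rw [Pi.smul_apply, kv x x.2]
        exact congrFun hc ⟨π x, _⟩
      rw [this, classInner_smul_left, hirr.inner_self, mul_one]
      exact hc0)
    obtain ⟨β', hβ', rfl⟩ := hβ.exists_deflate ρ hρ fun n hn => hβ1 n hn
    have hv : ∀ γ, χ.1.1 (π γ) = β' (ρ γ) * ψ γ := fun γ => (congrFun hβ2 γ).symm
    refine ⟨⟨⟨β', hβ'⟩, ov.2 fun z => ?_⟩, hv⟩
    obtain ⟨γ, hγ⟩ := hρ z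
    obtain ⟨x, hx, e⟩ := sec (π γ) ((mem_iff γ).2 (hγ ▸ z.2))
    have e1 : π (γ * x⁻¹) = 1 := by rw [map_mul, map_inv, hx, mul_inv_cancel]
    have e2 : ρ (γ * x⁻¹) = z := by rw [map_mul, map_inv, e, inv_one, mul_one, hγ]
    have a1 := hv (γ * x⁻¹)
    have a2 := hv 1
    have a3 := hkv _ e1
    rw [show (⟨ρ (γ * x⁻¹), zk e1⟩ : Z) = z from Subtype.ext e2] at a3
    rw [e1, e2] at a1
    rw [map_one, map_one, a1, ← a3] at a2
    have h4 : ψ (γ * x⁻¹) ≠ 0 := fun h => hθ'.one_ne_zero (by rw [← a3, h, zero_mul])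
    apply mul_right_cancel₀ h4
    change β' z * _ = β' 1 * _ * _
    rw [a2]; ring
  choose e he using h1
  refine ⟨hπ, hρ, cen, kπ, kρ, hψ, Equiv.ofBijective e ⟨fun a b hab => ?_, fun β => ?_⟩, he⟩
  · apply Subtype.ext
    apply Subtype.ext
    funext g
    obtain ⟨γ, rfl⟩ := hπ g
    rw [he, he, hab]
  · have hβμ := ov.1 β.2
    have h1 := gallagher_irr hψ hirr (β.1.2.comp_surjective ρ hρ) (fun n hn => by rw [MonoidHom.mem_ker.1 hn, map_one])
    obtain ⟨χ, hχ, hχe⟩ := h1.exists_deflate π hπ (fun z hz1 => by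
      have h3 := hkv z hz1
      have h4 := hβμ ⟨ρ z, zk hz1⟩
      simp only [Pi.mul_apply, map_one] at h4 ⊢
      rw [h4, ← h3]; ring)
    have h4 : (⟨χ, hχ⟩ : IrrCharacter G) ∈ overSet K φ := by
      rw [mem_overSet]
      have : (fun n : K => χ n) = β.1.1 1 • φ := funext fun n => by
        obtain ⟨x, hx, e⟩ := sec n n.2
        have h2 := congrFun hχe x
        simp only [Pi.mul_apply, e, kv x e, hx] at h2
        exact h2.symm
      change classInner (fun n : K => χ n) φ ≠ 0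
      rw [this, classInner_smul_left, hφ.inner_self, mul_one]
      exact β.1.2.one_ne_zero
    refine ⟨⟨_, h4⟩, Subtype.ext (Subtype.ext (funext fun y => ?_))⟩
    obtain ⟨γ, rfl⟩ := hρ y
    obtain ⟨x, hx, h0⟩ := exists_apply_mul_ne_zero hψ hirr γ
    have := (he ⟨_, h4⟩ (x * γ)).symm.trans (congrFun hχe (x * γ)).symm
    simp only [Pi.mul_apply, map_mul ρ, MonoidHom.mem_ker.1 hx, one_mul] at this
    exact mul_right_cancel₀ h0 this

end CL.DG
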