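import Cfsg.Agent.BLK.DG.CDefs

/-! Perfect bijections: induction on both sides, transport along isomorphisms.

PROOF of `PI.ind`. `IsFR` gives bijections `c' → c`, `B' → B` by `indFun`; the new kernel is
`∑ η' ∈ c', indFun T (I' η') x * indFun U η' y`; `cInt_ind_ind` twice; `sep`: unfold both
`indFun` as sums over conjugates (conjugates and subgroup elements keep their order).
PROOF of `Mot.hom`: `e : H ≃* normalizer P` from `MonoidHom.ofInjective` and `hr`
(`MulEquiv.subgroupCongr`); apply `Mot` to `blkMap e c` (`isDefectGroup_blkMap_iff`,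
`lamB_blkMap`, `isInducedBlock_iff`, `res` of a composite), return by `PI.map e.symm` and
`blkMap_symm_blkMap`. -/

set_option autoImplicit false

open Cfsg Subgroup CL.Char CL.Blk
open scoped Classical

namespace CL.DG

variable {p : ℕ} {M : Ideal AlgInt}

namespace Ind

theorem exists_bij {G : Type*} [Group G] [Fintype G] {T : Subgroup G} {B' : Set (IrrCharacter T)}
    {B : Set (IrrCharacter G)} (h : IsFR p M T B' B) :
    ∃ j : IrrCharacter T → IrrCharacter G, Set.BijOn j B' B ∧ ∀ ψ ∈ B', (j ψ).1 = indFun T ψ.1 := by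
  let j : IrrCharacter T → IrrCharacter G := fun ψ =>
    if hψ : ψ ∈ B' then ⟨indFun T ψ.1, h.irr ψ hψ⟩ else Blk.irrOne G
  have hj : ∀ ψ ∈ B', (j ψ).1 = indFun T ψ.1 := fun ψ hψ => by simp only [j, dif_pos hψ]
  refine ⟨j, ⟨fun ψ hψ => (h.mem_iff _).2 ⟨ψ, hψ, hj ψ hψ⟩, fun ψ hψ ψ' hψ' e => h.inj ψ hψ ψ' hψ' ?_,
    fun χ hχ => ?_⟩, hj⟩
  · exact (hj ψ hψ).symm.trans ((congrArg Subtype.val e).trans (hj ψ' hψ'))
  · obtain ⟨ψ, hψ, e⟩ := (h.mem_iff χ).1 hχ
    exact ⟨ψ, hψ, Subtype.ext ((hj ψ hψ).trans e.symm)⟩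

theorem ind_zero {G : Type*} [Group G] [Fintype G] {T : Subgroup G} {ι : Type*} (s : Finset ι)
    (a : ι → T → ℂ) (b : ι → ℂ) (x : G)
    (h : ∀ t : T, orderOf t = orderOf x → ∑ i ∈ s, a i t * b i = 0) :
    ∑ i ∈ s, indFun T (a i) x * b i = 0 := by
  have h1 : ∑ i ∈ s, indFun T (a i) x * b i = indFun T (∑ i ∈ s, b i • a i) x := by
    simp only [indFun_sum, indFun_smul, Finset.sum_apply, Pi.smul_apply, smul_eq_mul, mul_comm]
  rw [h1]
  refine indFun_eq_zero T _ x fun g hg => ?_
  rw [← h ⟨_, hg⟩ (by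
    rw [orderOf_mk]
    simpa using (MulAut.conj g⁻¹).orderOf_eq x)]
  simp only [Finset.sum_apply, Pi.smul_apply, smul_eq_mul, mul_comm]

theorem card_cent {H H' : Type*} [Group H] [Group H'] (e : H ≃* H') (y : H) :
    Nat.card (centralizer ({y} : Set H)) = Nat.card (centralizer ({e y} : Set H')) :=
  Nat.card_congr (e.toEquiv.subtypeEquiv fun a => by
    rw [mem_centralizer_singleton_iff, mem_centralizer_singleton_iff, MulEquiv.toEquiv_eq_coe,
      EquivLike.coe_coe, ← map_mul, ← map_mul, e.apply_eq_iff_eq])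

end Ind

theorem PI.ind {G H : Type*} [Group G] [Fintype G] [Group H] [Fintype H] (hM : IsPModular p M)
    {T : Subgroup G} {U : Subgroup H} {B' : Set (IrrCharacter T)} {B : Set (IrrCharacter G)}
    {c' : Set (IrrCharacter U)} {c : Set (IrrCharacter H)} (hG : IsFR p M T B' B)
    (hH : IsFR p M U c' c) (h : PI p M c' B') : PI p M c B := by
  obtain ⟨I', hI⟩ := h
  obtain ⟨jG, bG, eG⟩ := Ind.exists_bij hG
  obtain ⟨jH, bH, eH⟩ := Ind.exists_bij hH
  have : Nonempty (IrrCharacter U) := ⟨Blk.irrOne U⟩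
  have inv := bH.invOn_invFunOn
  have key : ∀ x y, pker c (jG ∘ I' ∘ Function.invFunOn jH c') x y =
      ∑ η with η ∈ c', indFun T (I' η).1 x * indFun U η.1 y := fun x y => by
    symm
    refine Finset.sum_nbij jH (fun η hη => ?_) (fun η hη η' hη' e => ?_) (fun η hη => ?_) fun η hη => ?_
    · simpa using bH.mapsTo (by simpa using hη)
    · exact bH.injOn (by simpa using hη) (by simpa using hη') e
    · obtain ⟨η', h1, h2⟩ := bH.surjOn (show η ∈ c by simpa using hη)
      exact ⟨η', by simpa using h1, h2⟩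
    · have hη' : η ∈ c' := by simpa using hη
      rw [Function.comp_apply, Function.comp_apply, inv.1 hη', eG _ (hI.bij.mapsTo hη'), eH _ hη']
  refine ⟨jG ∘ I' ∘ Function.invFunOn jH c', bG.comp (hI.bij.comp (bH.symm inv.symm)), fun y => ?_,
    fun x => ?_, fun x y hxy => ?_⟩
  · simp only [key]
    exact cInt_ind_ind _ (fun η => (I' η).2.isClassFunction) (fun η => η.2.isClassFunction) hI.left y
  · simp only [key, mul_comm (indFun T _ x)]
    refine cInt_ind_ind _ (fun η : IrrCharacter U => η.2.isClassFunction) (fun η => (I' η).2.isClassFunction)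
      (fun t => ?_) x
    simpa only [pker, mul_comm ((I' _).1 t)] using hI.right t
  · rw [key]
    refine Ind.ind_zero _ _ _ x fun t ht => ?_
    simp only [mul_comm ((I' _).1 t)]
    refine Ind.ind_zero _ _ _ y fun u hu => ?_
    simpa only [pker, mul_comm ((I' _).1 t)] using hI.sep t u (by rwa [ht, hu])

theorem PI.map {G H H' : Type*} [Group G] [Finite G] [Group H] [Finite H] [Group H'] [Finite H']
    (e : H ≃* H') {c : Set (IrrCharacter H)} {B : Set (IrrCharacter G)} (h : PI p M c B) :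
    PI p M (blkMap e c) B := by
  obtain ⟨I, hI⟩ := h
  let j : IrrCharacter H' → IrrCharacter H := irrInfl e.toMonoidHom e.surjective
  have bj : Set.BijOn j (blkMap e c) c := by
    refine ⟨fun η hη => hη, fun η _ η' _ h => Subtype.ext (funext fun y => ?_), fun ξ hξ => ?_⟩
    · obtain ⟨y, rfl⟩ := e.surjective y
      exact congrFun (congrArg Subtype.val h) y
    · exact ⟨_, (irrInfl_symm_mem_blkMap e).2 hξ, Subtype.ext (funext fun y => congrArg ξ.1 (e.symm_apply_apply y))⟩
  have key : ∀ x y, pker (blkMap e c) (I ∘ j) x (e y) = pker c I x y := fun x y => by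
    refine Finset.sum_nbij j (fun η hη => ?_) (fun η hη η' hη' e => ?_) (fun η hη => ?_) fun η _ => rfl
    · simpa using bj.mapsTo (by simpa using hη)
    · exact bj.injOn (by simpa using hη) (by simpa using hη') e
    · obtain ⟨η', h1, h2⟩ := bj.surjOn (show η ∈ c by simpa using hη)
      exact ⟨η', by simpa using h1, h2⟩
  refine ⟨I ∘ j, hI.bij.comp bj, fun y => ?_, fun x y => ?_, fun x y hxy => ?_⟩
  · obtain ⟨y, rfl⟩ := e.surjective y
    simpa only [key] using hI.left y
  · obtain ⟨y, rfl⟩ := e.surjective y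
    rw [← Ind.card_cent e y]
    simpa only [key] using hI.right x y
  · obtain ⟨y, rfl⟩ := e.surjective y
    rw [key]
    exact hI.sep x y (by rwa [e.orderOf_eq] at hxy)

theorem Mot.hom {G H : Type*} [Group G] [Finite G] [Group H] [Finite H] (hM : IsPModular p M)
    {B : Set (IrrCharacter G)} (hB : IsPBlock M B) (h : Mot p M G B) {P : Subgroup G}
    (hP : IsDefectGroup p M B P) (hab : ∀ x ∈ P, ∀ y ∈ P, x * y = y * x) (f : H →* G)
    (hf : Function.Injective f) (hr : f.range = normalizer (P : Set G))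
    {c : Set (IrrCharacter H)} (hc : IsPBlock M c) (hD : IsDefectGroup p M c (P.comap f))
    (hi : IndAlong f (lamB M c) (lamB M B)) : PI p M c B := by
  let e : H ≃* normalizer (P : Set G) := (MonoidHom.ofInjective hf).trans (MulEquiv.subgroupCongr hr)
  have he : ∀ x, (e x : G) = f x := fun x => rfl
  have h1 : (P.comap f).map e.toMonoidHom = P.subgroupOf (normalizer (P : Set G)) := by
    ext x
    obtain ⟨x, rfl⟩ := e.surjective x
    rw [mem_subgroupOf, he]
    exact mem_map_iff_mem (f := e.toMonoidHom) e.injective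
  have h2 := h P hP hab (blkMap e c) (h1 ▸ (isDefectGroup_blkMap_iff hM hc e).2 hD)
    ((isInducedBlock_iff hM).2 ⟨isPBlock_blkMap hM hc e, hB, fun z hz => by
      rw [lamB_blkMap hM hc e (hz.res _), res_res]
      exact hi z hz⟩)
  have h3 := h2.map e.symm
  rwa [blkMap_symm_blkMap] at h3

end CL.DG
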