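import Cfsg.Agent.BLK.DG.Dade
import Cfsg.Agent.BLK.DG.Gal

/-! The cover of the normaliser.

PROOF. `H = N_G(P)`, `K = N.subgroupOf H` (its elements centralise `P`:
`mem_centralizer_of_inf_eq_bot`). In `Γ`: `A = ⊤`, `N' = N.comap π` (`p'`-group:
`card = card N * card π.ker`, `fc.not_dvd_card`), `θ'|N'` irreducible (irreducible on
`ρ.ker ≤ N'`), `P'` = a Sylow `p`-subgroup of `P.comap π` (maps onto `P`, meets `π.ker`
trivially, so abelian; `P.comap π = P' ⊔ π.ker` with `π.ker` central, so `P'` is its set of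
`p`-elements and is normalised by `H' = H.comap π`), `C' = N' ⊓ H' = N' ⊓ C(P')`,
`φ' γ = φ (π γ) * (μ (ρ γ))⁻¹` on `C'` (zero elsewhere): irreducible (inflation times a linear
character), `⟨θ'|C', φ'⟩ = ⟨θ|K, φ⟩` (`fc.val`, `|μ| = 1`, fibres of `C' → K`). `dade` gives
`ψ`. `Γ₂ = H'`, `π₂ = π.subgroupComap H`, `ρ₂ = ρ ∘ subtype` (onto by `hNH` and `fc.sec`);
finish with `side_of_ext`. -/

set_option autoImplicit false
set_option maxHeartbeats 400000

open Cfsg Subgroup CL.Char CL.Blk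
open scoped Classical

namespace CL.DG

universe u

namespace InvX

theorem comm {G Γ : Type*} [Group G] [Group Γ] [Finite Γ] {p : ℕ} (hp : p.Prime) {π : Γ →* G}
    (hc : π.ker ≤ center Γ) (hk : ¬ p ∣ Nat.card π.ker) {x y : Γ} {k : ℕ} (hx : x ^ p ^ k = 1)
    (h : π y * π x = π x * π y) : y * x = x * y := by
  have m : y * x * y⁻¹ * x⁻¹ ∈ π.ker := by
    rw [MonoidHom.mem_ker, map_mul, map_mul, map_mul, map_inv, map_inv, h]
    group
  have c : Commute (y * x * y⁻¹ * x⁻¹) x := (mem_center_iff.1 (hc m) x).symm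
  have e := c.mul_pow (p ^ k)
  rw [inv_mul_cancel_right, conj_pow, hx, mul_one, mul_one, mul_inv_cancel] at e
  have o := orderOf_eq_one_iff.1 (Nat.eq_one_of_dvd_coprimes
    (((Nat.Prime.coprime_iff_not_dvd hp).2 hk).pow_left k) (orderOf_dvd_of_pow_eq_one e.symm)
    (orderOf_dvd_natCard _ m))
  rwa [mul_inv_eq_one, mul_inv_eq_iff_eq_mul] at o

theorem inner_mul {C : Type*} [Group C] [Fintype C] (a b : C → ℂ) (lam : C →* ℂˣ) :
    classInner (fun c => a c * lam c) (fun c => b c * lam c) = classInner a b := by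
  simp only [classInner]
  refine congrArg _ (Finset.sum_congr rfl fun c _ => ?_)
  rw [map_mul, ← (isIrrCharacter_hom lam).apply_inv c, mul_mul_mul_comm, map_inv, Units.mul_inv, mul_one]

end InvX

theorem exists_side {p : ℕ} {M : Ideal AlgInt} (hM : IsPModular p M) {G L : Type*} {Γ : Type u}
    [Group G] [Finite G] [Group Γ] [Finite Γ] [Group L] [Finite L] {N : Subgroup G} [N.Normal]
    {θ : N → ℂ} (hθ : IsIrrCharacter N θ) (hN : ¬ p ∣ Nat.card N) {π : Γ →* G} {ρ : Γ →* L}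
    {θ' : Γ → ℂ} {Z : Subgroup L} [Fintype Z] {μ : Z →* ℂˣ} (fc : IsFC N θ π ρ θ' Z μ)
    {P : Subgroup G} (hP : IsPGroup p P) (hab : ∀ x ∈ P, ∀ y ∈ P, x * y = y * x)
    (hNH : N ⊔ normalizer (P : Set G) = ⊤) [Fintype (N.subgroupOf (normalizer (P : Set G)))]
    {φ : N.subgroupOf (normalizer (P : Set G)) → ℂ} (hφ : IsIrrCharacter _ φ)
    (hl : Lnk p (fun k : N.subgroupOf (normalizer (P : Set G)) => θ ⟨k.1.1, k.2⟩) φ) :
    ∃ (Γ₂ : Type u) (_ : Group Γ₂) (_ : Finite Γ₂) (π₂ : Γ₂ →* normalizer (P : Set G))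
      (ρ₂ : Γ₂ →* L) (ψ : Γ₂ → ℂ),
      Side p π₂ ρ₂ ψ (overSet _ φ) (overSet Z fun z => (μ z : ℂ)) := by
  have hp : p.Prime := hM.1
  have : Fact p.Prime := ⟨hp⟩
  have kπ : ¬ p ∣ Nat.card π.ker := fc.card_kerπ ▸ fc.not_dvd_card hp hθ hN
  obtain ⟨P', hP'⟩ : ∃ P' : Subgroup Γ, ∀ γ, γ ∈ P' ↔ π γ ∈ P ∧ ∃ k, γ ^ p ^ k = 1 :=
    ⟨{ carrier := {γ | π γ ∈ P ∧ ∃ k, γ ^ p ^ k = 1}
       one_mem' := ⟨by simpa using one_mem P, 0, by simp⟩
       inv_mem' := fun h => ⟨by simpa using h.1, h.2.imp fun k e => by rw [inv_pow, e, inv_one]⟩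
       mul_mem' := fun {a b} ⟨ha, k, ea⟩ ⟨hb, l, eb⟩ => ⟨by simpa using mul_mem ha hb, k + l, by
         rw [Commute.mul_pow (InvX.comm hp fc.ker_central kπ eb (hab _ ha _ hb)), pow_add, pow_mul, ea, mul_comm (p ^ k),
           pow_mul, eb, one_pow, one_pow, mul_one]⟩ }, fun _ => Iff.rfl⟩
  have on : ∀ x ∈ P, ∃ γ ∈ P', π γ = x := fun x hx => by
    obtain ⟨γ, rfl⟩ := fc.surjπ x
    obtain ⟨k, hk⟩ := hP ⟨_, hx⟩
    have hk : π γ ^ p ^ k = 1 := congrArg Subtype.val hk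
    obtain ⟨a, ha⟩ := exists_pow_eq_self_of_coprime (x := π γ) (n := Nat.card π.ker)
      (((((Nat.Prime.coprime_iff_not_dvd hp).2 kπ).pow_left k).coprime_dvd_left (orderOf_dvd_of_pow_eq_one hk)).symm)
    refine ⟨_, pow_mem ((hP' (γ ^ Nat.card π.ker)).2 ⟨by simpa using pow_mem hx _, k, ?_⟩) a, by simpa using ha⟩
    rw [← pow_mul, mul_comm, pow_mul]
    exact orderOf_dvd_iff_pow_eq_one.1 (orderOf_dvd_natCard _ (by rw [MonoidHom.mem_ker, map_pow, hk]))
  have PN : P ⊓ N = ⊥ := eq_bot_iff.2 fun x hx => by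
    obtain ⟨k, hk⟩ := hP ⟨_, hx.1⟩
    exact orderOf_eq_one_iff.1 (Nat.eq_one_of_dvd_coprimes (((Nat.Prime.coprime_iff_not_dvd hp).2 hN).pow_left k)
      (orderOf_dvd_of_pow_eq_one (congrArg Subtype.val hk)) (orderOf_dvd_natCard _ hx.2))
  let C := N.comap π ⊓ (normalizer (P : Set G)).comap π
  have := Fintype.ofFinite C
  let f : C →* N.subgroupOf (normalizer (P : Set G)) :=
    ((π.comp C.subtype).codRestrict _ fun c => c.2.2).codRestrict _ fun c => c.2.1
  have hf : Function.Surjective f := fun ⟨⟨x, hx⟩, hx'⟩ => by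
    obtain ⟨γ, rfl⟩ := fc.surjπ x
    exact ⟨⟨γ, hx', hx⟩, rfl⟩
  let lam : N.comap π →* ℂˣ := μ⁻¹.comp ((ρ.comp (N.comap π).subtype).codRestrict Z fun c => (fc.mem_iff _).1 c.2)
  have val : ∀ n : N.comap π, θ' n = θ ⟨π n, n.2⟩ * lam n := fun n => by
    rw [← fc.val _ n.2 ((fc.mem_iff _).1 n.2), mul_assoc]
    exact (mul_one _).symm.trans (congrArg _ (Units.mul_inv _).symm)
  obtain ⟨φ', hφ'⟩ : ∃ φ' : Γ → ℂ, ∀ c : C, φ' c = φ (f c) * lam.comp (inclusion inf_le_left) c :=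
    ⟨fun γ => if h : γ ∈ C then φ (f ⟨γ, h⟩) * lam.comp (inclusion inf_le_left) ⟨γ, h⟩ else 0,
      fun c => dif_pos c.2⟩
  obtain ⟨ψ, hψ, e⟩ := dade hM (A := ⊤) (N := N.comap π) (P := P') (H := (normalizer (P : Set G)).comap π) (C := C)
    (χ := θ') (φ := φ') le_top (normalizer_eq_top _).ge (fun d => by
      obtain ⟨γ, o⟩ := exists_prime_orderOf_dvd_card' p d
      rw [← Subgroup.orderOf_coe] at o
      exact hN (((IsFC.dvd_orderOf_iff_of_ker hp kπ _).2 o.symm.dvd).trans (orderOf_dvd_natCard _ γ.2)))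
    (fun x => ((hP' _).1 x.2).2.imp fun k e => Subtype.ext e)
    (fun x hx y hy => ((hP' _).1 hy).2.elim fun k e =>
      InvX.comm hp fc.ker_central kπ e (hab _ ((hP' _).1 hx).1 _ ((hP' _).1 hy).1)) le_top le_top
    (fun g hg => mem_normalizer_iff.2 fun x => by
      rw [hP', hP', map_mul, map_mul, map_inv, ← mem_normalizer_iff.1 hg]
      simp only [conj_pow, conj_eq_one_iff])
    (le_antisymm (fun c hc => ⟨hc.1, fun y hy => ((hP' _).1 hy).2.elim fun k e =>
      (InvX.comm hp fc.ker_central kπ e (mem_centralizer_of_inf_eq_bot (le_top.trans (normalizer_eq_top _).ge) PN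
        hc.1 hc.2 _ ((hP' _).1 hy).1).symm).symm⟩)
      fun c hc => ⟨hc.1, centralizer_le_normalizer _ fun x hx => by
        obtain ⟨γ, hγ, rfl⟩ := on x hx
        rw [← map_mul, ← map_mul, hc.2 γ hγ]⟩) inf_le_right (fc.irr.isCharacter.res ⊤)
    (by
      rw [funext val]
      exact (hθ.comp_surjective (π.subgroupComap N) (π.subgroupComap_surjective_of_surjective N fc.surjπ)).mul_linear
        (isIrrCharacter_hom lam).isCharacter (by simp))
    (by
      rw [funext hφ']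
      exact (hφ.comp_surjective f hf).mul_linear (isIrrCharacter_hom _).isCharacter (by simp))
    (by
      obtain ⟨m, e, hm⟩ := hl
      refine ⟨m, ?_, hm⟩
      rw [funext hφ', ← e, ← classInner_comp_surjective f hf]
      refine Eq.trans ?_ (InvX.inner_mul _ _ (lam.comp (inclusion inf_le_left)))
      exact congrArg₂ classInner (funext fun c => val ⟨c, c.2.1⟩) rfl)
  refine ⟨(normalizer (P : Set G)).comap π, inferInstance, inferInstance, π.subgroupComap _,
    ρ.comp (Subgroup.subtype _), fun h => ψ h, side_of_ext hφ (π.subgroupComap_surjective_of_surjective _ fc.surjπ)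
      (fun l => ?_) (fun γ => fc.mem_iff γ) fc.central
      (fun z hz => mem_center_iff.2 fun g => Subtype.ext
        (mem_center_iff.1 (fc.ker_central (show z.1 ∈ π.ker from congrArg Subtype.val hz)) g))
      (fun d => kπ (d.trans (card_dvd_of_injective (((Subgroup.subtype _).comp (Subgroup.subtype _)).codRestrict π.ker
        fun x => congrArg Subtype.val x.2) fun x y q =>
          Subtype.ext (Subtype.ext (congrArg (fun z : π.ker => z.1) q)))))
      (fun d => hN (fc.card_kerρ ▸ d.trans (card_dvd_of_injective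
        (((Subgroup.subtype _).comp (Subgroup.subtype _)).codRestrict ρ.ker fun x => x.2)
        fun x y q => Subtype.ext (Subtype.ext (congrArg (fun z : ρ.ker => z.1) q))))) hψ (fun γ h h' => ?_) fun n hn => ?_⟩
  · obtain ⟨γ, rfl⟩ := fc.surjρ l
    obtain ⟨n, hn, h, hh, q⟩ := mem_sup_of_normal_left.1 (hNH.ge (mem_top (π γ)))
    obtain ⟨x, rfl, hx⟩ := fc.sec n hn
    exact ⟨⟨x⁻¹ * γ, by rwa [mem_comap, map_mul, map_inv, ← q, inv_mul_cancel_left]⟩, by simp [hx]⟩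
  · rw [e γ ⟨h, γ.2⟩, hφ' ⟨γ, h, γ.2⟩, mul_assoc]
    exact (congrArg _ (Units.inv_mul _)).trans (mul_one _)
  · obtain ⟨x, q, hx⟩ := fc.sec n hn
    exact ⟨⟨x, by rw [mem_comap, q]; exact n.2⟩, Subtype.ext q, hx⟩

end CL.DG
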