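import Cfsg.Agent.BLK.DG.Defs

/-! The twist `Ψ` turning the conjugation operator `T1` into `ad t`.

PROOF. `A = PA F Q`. For a hom `r` let `φ_r : A →+* Matrix n n A` be `aeval (g ↦ single g (X g))
: A → MonoidAlgebra A Q` (commutative target) followed by `MonoidAlgebra.lift A _ Q (mp A ∘ r)`;
so `φ (X g) = X g • mp (r g)`, `φ (C c) = C c • 1`. `Ψ_r P = ∑ i j, single i j 1 * φ (P i j)`.
`Ψ (a • P) = Ψ P * φ a`; `Ψ (mp M * P) = mp M * Ψ P` (`φ (C c * a) = C c • φ a`,
`M * single k j 1 = ∑ i, M i k • single i j 1`); if `M` commutes with `r` it commutes with every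
`φ a` (`MvPolynomial.induction_on`) and `Ψ (P * mp M) = Ψ P * mp M`; `Ψ 1 = 1`.
`Ψ (T1 P) = ∑ (r g Ψ P r g⁻¹ - Ψ P) * (X g • r g) = t Ψ P - Ψ P t`.
Inverse: `Ψ_r'` with `r' g = r g⁻¹` (a hom, `Q` commutative). Check `Ψ_r' (Ψ_r (a • mp M)) =
a • mp M` by induction on `a` (all `M`): for `a * X g`,
`Ψ_r ((a * X g) • mp M) = X g • (Ψ_r (a • mp M) * mp (r g))`, apply `Ψ_r'`:
`Ψ_r' (a • mp M) * r g * φ_r' (X g)`; every `P` is a sum of `P i j • mp (single i j 1)`.
`φ a ^ p = a ^ p • 1` by induction on `a` (`Commute.exists_add_pow_prime_eq`, `p = 0` in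
`Matrix n n A`, see `tt_pow`). -/

namespace CL.DG

open MvPolynomial

section
variable {F Q n : Type*} [Field F] [CommGroup Q] [Fintype n] [DecidableEq n]

/-- the substitution `X g ↦ X g • r g` -/
noncomputable def Psx.ph (r : Q →* Matrix n n F) : PA F Q →ₐ[F] Matrix n n (PA F Q) :=
  ((MonoidAlgebra.lift (PA F Q) (Matrix n n (PA F Q)) Q
    ((mp (PA F Q)).toMonoidHom.comp r)).restrictScalars F).comp
      (aeval fun g => (MonoidAlgebra.single g (X g) : MonoidAlgebra (PA F Q) Q))

theorem Psx.ph_X (r : Q →* Matrix n n F) (g : Q) : Psx.ph r (X g) = (X g : PA F Q) • mp (PA F Q) (r g) := by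
  simp [Psx.ph]

theorem Psx.ph_C (r : Q →* Matrix n n F) (c : F) : Psx.ph r (C c) = (C c : PA F Q) • 1 := by
  rw [← MvPolynomial.algebraMap_eq, AlgHom.commutes, algebraMap_smul, Algebra.algebraMap_eq_smul_one]

theorem Psx.comm (r : Q →* Matrix n n F) {M : Matrix n n F} (h : ∀ g, Commute (r g) M) (a : PA F Q) :
    Commute (Psx.ph r a) (mp (PA F Q) M) := by
  induction a using MvPolynomial.induction_on with
  | C c => rw [Psx.ph_C]; exact (Commute.one_left _).smul_left _
  | add a b ha hb => rw [map_add]; exact ha.add_left hb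
  | mul_X a g ha => rw [map_mul, Psx.ph_X]; exact ha.mul_left (((h g).map (mp (PA F Q))).smul_left _)

/-- the twist -/
noncomputable def Psx.ps (r : Q →* Matrix n n F) : Matrix n n (PA F Q) →+ Matrix n n (PA F Q) where
  toFun P := ∑ i, ∑ j, Matrix.single i j 1 * Psx.ph r (P i j)
  map_zero' := by simp
  map_add' P P' := by simp [mul_add, Finset.sum_add_distrib]

theorem Psx.key (r : Q →* Matrix n n F) (a : PA F Q) (M : Matrix n n F) :
    Psx.ps r (a • mp (PA F Q) M) = mp (PA F Q) M * Psx.ph r a := by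
  change ∑ i, ∑ j, Matrix.single i j 1 * Psx.ph r ((a • mp (PA F Q) M) i j) = _
  conv_rhs => rw [Matrix.matrix_eq_sum_single (mp (PA F Q) M)]
  simp only [Finset.sum_mul]
  refine Finset.sum_congr rfl fun i _ => Finset.sum_congr rfl fun j _ => ?_
  rw [Matrix.smul_apply, smul_eq_mul, mul_comm a, map_mul, mp_apply, MvPolynomial.algebraMap_eq, Psx.ph_C,
    ← mul_assoc, mul_smul_comm, mul_one, Matrix.smul_single, smul_eq_mul, mul_one]

omit [CommGroup Q] in
theorem Psx.ind {S : Matrix n n (PA F Q) → Prop} (h0 : S 0) (ha : ∀ P P', S P → S P' → S (P + P'))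
    (hs : ∀ (a : PA F Q) (M : Matrix n n F), S (a • mp (PA F Q) M)) (P : Matrix n n (PA F Q)) : S P := by
  induction P using Matrix.induction_on' with
  | h_zero => exact h0
  | h_add A B hA hB => exact ha A B hA hB
  | h_std_basis i j a =>
    have e : (Matrix.single i j a : Matrix n n (PA F Q)) = a • mp (PA F Q) (Matrix.single i j (1 : F)) := by
      ext1 k l
      by_cases hk : i = k ∧ j = l <;> simp [mp_apply, Matrix.single, hk]
    rw [e]
    exact hs _ _

theorem Psx.smul (r : Q →* Matrix n n F) (a : PA F Q) (P : Matrix n n (PA F Q)) :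
    Psx.ps r (a • P) = Psx.ps r P * Psx.ph r a := by
  induction P using Psx.ind with
  | h0 => simp
  | ha P P' h h' => rw [smul_add, map_add, map_add, h, h', add_mul]
  | hs b M => rw [smul_smul, Psx.key, Psx.key, mul_comm a, map_mul, mul_assoc]

theorem Psx.left (r : Q →* Matrix n n F) (M : Matrix n n F) (P : Matrix n n (PA F Q)) :
    Psx.ps r (mp (PA F Q) M * P) = mp (PA F Q) M * Psx.ps r P := by
  induction P using Psx.ind with
  | h0 => simp
  | ha P P' h h' => rw [mul_add, map_add, map_add, h, h', mul_add]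
  | hs b N => rw [mul_smul_comm, ← map_mul, Psx.key, Psx.key, map_mul, mul_assoc]

theorem Psx.right (r : Q →* Matrix n n F) {M : Matrix n n F} (hM : ∀ g, Commute (r g) M)
    (P : Matrix n n (PA F Q)) : Psx.ps r (P * mp (PA F Q) M) = Psx.ps r P * mp (PA F Q) M := by
  induction P using Psx.ind with
  | h0 => simp
  | ha P P' h h' => rw [add_mul, map_add, map_add, h, h', add_mul]
  | hs b N =>
    rw [smul_mul_assoc, ← map_mul, Psx.key, Psx.key, map_mul, mul_assoc, mul_assoc, (Psx.comm r hM b).eq]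

theorem Psx.inv (r r' : Q →* Matrix n n F) (h : ∀ g, r g * r' g = 1) (hc : ∀ g g', Commute (r' g') (r g))
    (P : Matrix n n (PA F Q)) : Psx.ps r' (Psx.ps r P) = P := by
  have k : ∀ a : PA F Q, Psx.ps r' (Psx.ph r a) = a • 1 := by
    intro a
    induction a using MvPolynomial.induction_on with
    | C c => rw [Psx.ph_C, ← map_one (mp (F := F) (PA F Q)), Psx.key, Psx.ph_C, map_one, one_mul]
    | add a b ha hb => rw [map_add, map_add, ha, hb, add_smul]
    | mul_X a g ha =>
      rw [map_mul, Psx.ph_X, mul_smul_comm, Psx.smul, Psx.right r' (hc g), ha, Psx.ph_X, mul_assoc,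
        mul_smul_comm, ← map_mul, h, map_one, smul_mul_assoc, one_mul, smul_smul]
  induction P using Psx.ind with
  | h0 => simp
  | ha P P' h h' => rw [map_add, map_add, h, h']
  | hs b N => rw [Psx.key, Psx.left, k, mul_smul_comm, mul_one]

end

theorem psi {F Q n : Type*} [Field F] [CommGroup Q] [Fintype Q] [Fintype n] [DecidableEq n]
    (p : ℕ) [Fact p.Prime] [CharP F p] (r : Q →* Matrix n n F) (hp : ∀ g, r g ^ p = 1) :
    ∃ (φ : PA F Q →+* Matrix n n (PA F Q)) (Ψ : Matrix n n (PA F Q) ≃+ Matrix n n (PA F Q)),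
      (∀ a P, Ψ (a • P) = Ψ P * φ a) ∧
      (∀ (M : Matrix n n F) P, Ψ (mp (PA F Q) M * P) = mp (PA F Q) M * Ψ P) ∧
      (∀ M : Matrix n n F, (∀ g, Commute (r g) M) →
        (∀ P, Ψ (P * mp (PA F Q) M) = Ψ P * mp (PA F Q) M) ∧
          ∀ a, Commute (φ a) (mp (PA F Q) M)) ∧
      Ψ 1 = 1 ∧
      (∀ P, Ψ (T1 (X : Q → PA F Q) r P) =
        tt (X : Q → PA F Q) r * Ψ P - Ψ P * tt (X : Q → PA F Q) r) ∧
      (∀ a, φ a ^ p = a ^ p • (1 : Matrix n n (PA F Q))) ∧
      ∀ a, Commute (φ a) (tt (X : Q → PA F Q) r) := by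
  have cm : ∀ g g' : Q, Commute (r g) (r g') := fun g g' => (Commute.all g g').map r
  have ct : ∀ a, Commute (Psx.ph r a) (tt (X : Q → PA F Q) r) := fun a =>
    Commute.sum_right _ _ _ fun g _ =>
      (Psx.comm r (fun g' => (cm g' g).sub_right (Commute.one_right _)) a).smul_right _
  let r' : Q →* Matrix n n F := r.comp invMonoidHom
  have e' : ∀ g, r' g = r g⁻¹ := fun g => rfl
  let Ψ : Matrix n n (PA F Q) ≃+ Matrix n n (PA F Q) :=
    { toFun := Psx.ps r
      invFun := Psx.ps r'
      left_inv := Psx.inv r r' (fun g => by rw [e', ← map_mul, mul_inv_cancel, map_one]) fun g g' => cm _ _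
      right_inv := Psx.inv r' r (fun g => by rw [e', ← map_mul, inv_mul_cancel, map_one]) fun g g' => cm _ _
      map_add' := map_add _ }
  refine ⟨(Psx.ph r).toRingHom, Ψ, Psx.smul r, Psx.left r, fun M hM => ⟨Psx.right r hM, Psx.comm r hM⟩,
    ?_, fun P => ?_, fun a => ?_, ct⟩
  · have := Psx.key r 1 1
    rwa [map_one, map_one, one_smul, one_mul] at this
  · change Psx.ps r _ = _ * Psx.ps r P - Psx.ps r P * _
    induction P using Psx.ind with
    | h0 => simp
    | ha P P' h h' => rw [map_add, map_add, map_add, h, h', mul_add, add_mul]; abel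
    | hs b N =>
      rw [T1_apply, map_sum, Psx.key, mul_assoc, (ct b).eq, ← mul_assoc, ← mul_assoc, ← sub_mul, tt,
        Finset.sum_mul, Finset.mul_sum, ← Finset.sum_sub_distrib, Finset.sum_mul]
      refine Finset.sum_congr rfl fun g _ => ?_
      rw [mul_smul_comm, smul_mul_assoc, ← map_mul, ← map_mul, ← smul_sub, ← map_sub, smul_smul, Psx.key,
        map_mul, Psx.ph_X, ← mul_assoc, mul_smul_comm, mul_smul_comm, smul_mul_assoc (X g) (mp _ (r g - 1)),
        ← smul_sub, ← map_mul, ← map_mul, ← map_mul, ← map_sub]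
      congr 3
      rw [sub_mul, mul_assoc, ← map_mul, inv_mul_cancel, map_one, mul_one, sub_mul, mul_sub, one_mul, mul_one]
      abel
  · change Psx.ph r a ^ p = _
    induction a using MvPolynomial.induction_on with
    | C c => rw [Psx.ph_C, _root_.smul_pow, one_pow]
    | add a b ha hb => rw [← map_pow, add_pow_char, map_add, map_pow, map_pow, ha, hb, add_smul]
    | mul_X a g ha =>
      rw [← map_pow, mul_pow, map_mul, map_pow, map_pow, ha, Psx.ph_X, _root_.smul_pow, ← map_pow, hp, map_one,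
        smul_mul_assoc, one_mul, smul_smul]

end CL.DG
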