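import Cfsg.Agent.BLK.DG.Tate
import Cfsg.Agent.BLK.DG.Psi

/-! The dichotomy: an endomorphism commuting with `t` is stably zero or stably invertible.

PROOF. `A = PA F Q`, `R' = R.comp j`, `e = e0 R' W`.
(a) `tr_mult`: if `P` (over `A`) commutes with all `mp (R' c)` and `mp e * P = C κ' • P`, put
`f c = tr (mp (R' c) * P)` (class function). `κ' f c = tr (R' c * e * P) =
∑ c', tr W c'⁻¹ f (c c') = tr (Z * W c)` with `Z = ∑ d, f d • mp (W d⁻¹)`; `Z` commutes with all
`mp (W c)`, hence with every matrix (`FI.ext`: `κ' • X` is a combination of the `W c`), so `Z` is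
scalar (`Matrix.mem_range_scalar_iff_commute_single'` or similar).
(b) `e * e = κ' • e` (FI with `X = 1`, multiply by `W d⁻¹`, trace); `e` commutes with `R' c` and
with `r g` (`Data.comm`), so `T1 (mp e) = 0` and `Ψ (mp e) = mp e`.
(c) Clear denominators: `S = (algebraMap d0)⁻¹ • S0.map _`
(`IsLocalization.exist_integer_multiples_of_finite`), `P = Ψ.symm S0`: `T1 P = 0`, `P` satisfies
(a) with `z`, and `mp e` satisfies (a) with `z'`.
If `z = 0`: `tate` gives `d • P = T1^(p-1) P'`, so `S0 * φ d = ad^(p-1) (Ψ P')` where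
`ad Y = t Y - Y t`. If `z ≠ 0` apply `tate` to `z • mp e - z' • P`:
`e * φ (d z) - S0 * φ (d z') = ad^(p-1) (Ψ P')`. Over the fraction field `φ a` (`a ≠ 0`) has the
inverse `(a^p)⁻¹ • φ a ^ (p-1)`, which commutes with `t` and `R' c`; and `t * u = 0` gives
`(ad^k Y) * u = t^k * (Y * u)` (induction on `k`). Apply to `u' = (φ _)⁻¹ * u`. -/

set_option maxHeartbeats 400000
set_option linter.unusedSectionVars false

namespace CL.DG

open MvPolynomial

variable {F Q N C n m : Type*} [Field F] [CommGroup Q] [Fintype Q] [Group N] [Fintype N]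
  [Group C] [Fintype C] [Fintype n] [DecidableEq n] [Fintype m] [DecidableEq m]
  {p : ℕ} [Fact p.Prime] [CharP F p] {α : Q →* MulAut N} {R : N →* Matrix n n F}
  {r : Q →* Matrix n n F} {j : C →* N} {W : C →* Matrix m m F} {κ κ' : F}

namespace KeyX

theorem tr_conj (W : C →* Matrix m m F) (d c : C) : (W (d * c * d⁻¹)).trace = (W c).trace := by
  rw [map_mul, Matrix.trace_mul_comm, ← map_mul, inv_mul_cancel_left]

theorem tr_mult {A : Type*} [CommRing A] [Algebra F A] (R' : C →* Matrix n n F) (hW : FI W κ')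
    {P : Matrix n n A} (hC : ∀ c, Commute (mp A (R' c)) P)
    (he : mp A (e0 R' W) * P = algebraMap F A κ' • P) :
    ∃ z : A, ∀ c, algebraMap F A κ' * (mp A (R' c) * P).trace = z * algebraMap F A (W c).trace := by
  have hf : ∀ d c, (mp A (R' (d * c * d⁻¹)) * P).trace = (mp A (R' c) * P).trace := fun d c => by
    rw [map_mul, map_mul, mul_assoc, (hC d⁻¹).eq, ← mul_assoc, Matrix.trace_mul_comm, ← mul_assoc,
      ← map_mul, ← map_mul, inv_mul_cancel_left]
  have hZ : ∀ c, Commute (mp A (W c)) (∑ d, (mp A (R' d) * P).trace • mp A (W d⁻¹)) := fun c => by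
    rw [Commute, SemiconjBy, Finset.mul_sum, Finset.sum_mul]
    refine Fintype.sum_equiv (MulAut.conj c).toEquiv _ _ fun d => ?_
    rw [mul_smul_comm, smul_mul_assoc, ← map_mul, ← map_mul, ← map_mul, ← map_mul]
    simp only [MulEquiv.toEquiv_eq_coe, EquivLike.coe_coe, MulAut.conj_apply, hf]
    congr 3
    group
  obtain ⟨z, hz⟩ := Matrix.mem_range_scalar_of_commute_single
    (M := ∑ d, (mp A (R' d) * P).trace • mp A (W d⁻¹)) fun i k _ => by
      have e : (Matrix.single i k 1 : Matrix m m A) =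
          algebraMap F A κ'⁻¹ • algebraMap F A κ' • Matrix.single i k 1 := by
        rw [smul_smul, ← map_mul, inv_mul_cancel₀ hW.1, map_one, one_smul]
      show Commute (Matrix.single i k 1) _
      rw [e, ← hW.ext]
      exact (Commute.sum_left _ _ _ fun x _ => (hZ x).smul_left _).smul_left _
  refine ⟨z, fun c => ?_⟩
  have e := congrArg (fun Z => (Z * mp A (W c)).trace) hz
  simp only [Matrix.scalar_apply, ← Matrix.smul_eq_diagonal_mul, Matrix.trace_smul, trace_mp, smul_eq_mul,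
    Finset.sum_mul, smul_mul_assoc, Matrix.trace_sum, ← map_mul] at e
  rw [e, ← smul_eq_mul, ← Matrix.trace_smul, ← mul_smul_comm, ← he, e0, map_sum, Finset.sum_mul,
    Finset.mul_sum, Matrix.trace_sum]
  refine Fintype.sum_equiv (Equiv.mulLeft c) _ _ fun d => ?_
  rw [mp_smul, smul_mul_assoc, mul_smul_comm, Matrix.trace_smul, smul_eq_mul, mul_comm, ← mul_assoc,
    ← map_mul, ← map_mul]
  simp

theorem e_mul (R' : C →* Matrix n n F) (hW : FI W κ') : e0 R' W * e0 R' W = κ' • e0 R' W := by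
  have k : ∀ x : C, ∑ c, (W c⁻¹).trace * (W (x⁻¹ * c)).trace = κ' * (W x⁻¹).trace := fun x => by
    simpa [Finset.mul_sum, Matrix.trace_sum] using congrArg (fun Z => (W x⁻¹ * Z).trace) (hW.2 1)
  simp only [e0, Finset.smul_sum, smul_smul, ← k, Finset.sum_smul]
  rw [Finset.sum_comm, Finset.sum_mul]
  refine Finset.sum_congr rfl fun c _ => ?_
  rw [Finset.mul_sum]
  refine Fintype.sum_equiv (Equiv.mulLeft c) _ _ fun d => ?_
  rw [smul_mul_smul_comm, ← map_mul]
  simp

theorem e_comm (R' : C →* Matrix n n F) (c : C) : Commute (R' c) (e0 R' W) := by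
  rw [Commute, SemiconjBy, e0, Finset.mul_sum, Finset.sum_mul]
  refine Fintype.sum_equiv (MulAut.conj c).toEquiv _ _ fun d => ?_
  rw [mul_smul_comm, smul_mul_assoc, ← map_mul, ← map_mul, ← tr_conj W c d⁻¹]
  simp only [MulEquiv.toEquiv_eq_coe, EquivLike.coe_coe, MulAut.conj_apply]
  congr 2
  · congr 1
    group
  · group

end KeyX

open KeyX

theorem key (h : Data p α R r j W κ κ') (S : Matrix n n (PK F Q))
    (ht : Commute (tt (yK F) r) S) (hC : ∀ c, Commute (mp (PK F Q) (R (j c))) S)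
    (he : mp (PK F Q) (e0 (R.comp j) W) * S = algebraMap F (PK F Q) κ' • S) :
    (∀ u : Matrix n m (PK F Q), tt (yK F) r * u = 0 →
      ∃ v : Matrix n m (PK F Q), S * u = tt (yK F) r ^ (p - 1) * v) ∨
    ∃ B : Matrix n n (PK F Q), Commute (tt (yK F) r) B ∧
      (∀ c, Commute (mp (PK F Q) (R (j c))) B) ∧
      ∀ u : Matrix n m (PK F Q), tt (yK F) r * u = 0 →
        ∃ v : Matrix n m (PK F Q), mp (PK F Q) (e0 (R.comp j) W) * u =
          S * (B * u) + tt (yK F) r ^ (p - 1) * v := by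
  obtain ⟨φ, Ψ, h1, h2, h3, h4, h5, h6, h7⟩ := psi p r h.rp
  have hp : p.Prime := Fact.out
  have ij := IsFractionRing.injective (PA F Q) (PK F Q)
  obtain ⟨μ, hμ⟩ : ∃ μ : Matrix n n (PA F Q) →+* Matrix n n (PK F Q),
      ∀ M, μ M = M.map (algebraMap (PA F Q) (PK F Q)) := ⟨(algebraMap _ _).mapMatrix, fun _ => rfl⟩
  have mi : Function.Injective μ := fun M M' e => Matrix.map_injective ij (by rwa [hμ, hμ] at e)
  have mt : μ (tt X r) = tt (yK F) r := (hμ _).trans (map_tt r)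
  have mm : ∀ M : Matrix n n F, μ (mp _ M) = mp _ M := fun M => (hμ _).trans (map_mp _ _ M)
  have ms : ∀ a M, μ (a • M) = algebraMap (PA F Q) (PK F Q) a • μ M := fun a M => by
    ext i k; simp [hμ]
  obtain ⟨⟨d₀, hd₀⟩, hb⟩ := IsLocalization.exist_integer_multiples_of_finite (nonZeroDivisors (PA F Q))
    fun x : n × n => S x.1 x.2
  choose s hs using hb
  obtain ⟨S₀, hS⟩ : ∃ S₀, μ S₀ = algebraMap (PA F Q) (PK F Q) d₀ • S :=
    ⟨Matrix.of fun i k => s (i, k), by ext i k; simp [hμ, hs, Algebra.smul_def]⟩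
  have nz : ∀ {a : PA F Q}, a ≠ 0 → algebraMap (PA F Q) (PK F Q) a ≠ 0 := fun ha =>
    (map_ne_zero_iff _ ij).2 ha
  have d0 := nz (nonZeroDivisors.ne_zero hd₀)
  obtain ⟨P, rfl⟩ := Ψ.surjective S₀
  have er : ∀ g, Commute (r g) (e0 (R.comp j) W) := fun g =>
    Commute.sum_right _ _ _ fun c _ => (h.comm g c).smul_right _
  have pe : Ψ (mp _ (e0 (R.comp j) W)) = mp _ (e0 (R.comp j) W) := by
    rw [← mul_one (mp _ _), h2, h4]
  have T1P : T1 X r P = 0 := Ψ.map_eq_zero_iff.1 (mi (by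
    rw [h5, map_sub, map_mul, map_mul, mt, hS, (ht.smul_right _).eq, sub_self, map_zero]))
  have T1e : T1 (X : Q → PA F Q) r (mp _ (e0 (R.comp j) W)) = 0 := Ψ.map_eq_zero_iff.1 (by
    rw [h5, pe, (commute_tt _ er).eq, sub_self])
  obtain ⟨z, hz⟩ := tr_mult (P := P) (R.comp j) h.fiW (fun c => Ψ.injective (mi (by
    rw [MonoidHom.comp_apply, h2, (h3 _ fun g => h.comm g c).1, map_mul μ, map_mul μ, mm, hS]
    exact (hC c).smul_right _))) (Ψ.injective (mi (by
      rw [← one_mul P, ← smul_mul_assoc, ← map_one (mp (F := F) (PA F Q)), ← mp_smul, h2, h2, h2, map_mul,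
        map_mul, map_mul, mm, mm, mm, hS, map_one, one_mul, mul_smul_comm, he, mp_smul, map_one, smul_mul_assoc,
        one_mul, smul_comm])))
  obtain ⟨z', hz'⟩ := tr_mult (A := PA F Q) (R.comp j) h.fiW (fun c => (e_comm (W := W) (R.comp j) c).map _)
    (by rw [← map_mul, e_mul _ h.fiW, mp_smul])
  have k0 : algebraMap F (PA F Q) κ' ≠ 0 := (map_ne_zero _).2 h.fiW.1
  have ad : ∀ (Y) (u : Matrix n m (PK F Q)), tt (yK F) r * u = 0 → ∀ k : ℕ,
      μ (Ψ ((T1 X r ^ k) Y)) * u = tt (yK F) r ^ k * (μ (Ψ Y) * u) := fun Y u hu k => by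
    induction k with
    | zero => simp
    | succ k ih =>
      rw [pow_succ', Module.End.mul_apply, h5, map_sub, map_mul, map_mul, mt, Matrix.sub_mul, Matrix.mul_assoc,
        Matrix.mul_assoc, hu, Matrix.mul_zero, sub_zero, ih, pow_succ', Matrix.mul_assoc]
  have ct : ∀ a, Commute (tt (yK F) r) (μ (φ a)) := fun a => mt ▸ (h7 a).symm.map μ
  have cc : ∀ a c, Commute (mp (PK F Q) (R (j c))) (μ (φ a)) := fun a c =>
    mm (R (j c)) ▸ ((h3 _ fun g => h.comm g c).2 a).symm.map μ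
  have iv : ∀ {a : PA F Q}, a ≠ 0 → ∃ g, μ (φ a) * g = 1 ∧ Commute (tt (yK F) r) g ∧
      ∀ c, Commute (mp (PK F Q) (R (j c))) g := fun {a} ha =>
    ⟨(algebraMap (PA F Q) (PK F Q) (a ^ p))⁻¹ • μ (φ a) ^ (p - 1), by
      rw [mul_smul_comm, ← pow_succ', Nat.sub_add_cancel hp.pos, ← map_pow μ, h6, ms, map_one, smul_smul,
        inv_mul_cancel₀ (nz (pow_ne_zero _ ha)), one_smul],
      ((ct a).pow_right _).smul_right _, fun c => ((cc a c).pow_right _).smul_right _⟩
  have kill : ∀ {g} {u : Matrix n m (PK F Q)}, Commute (tt (yK F) r) g → tt (yK F) r * u = 0 →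
      tt (yK F) r * (g * u) = 0 := fun hg hu => by
    rw [← Matrix.mul_assoc, hg.eq, Matrix.mul_assoc, hu, Matrix.mul_zero]
  by_cases z0 : z = 0
  · obtain ⟨d, hd, Y, e⟩ := tate p h.conj h.αp h.fiR P T1P fun x hx => by
      obtain ⟨c, rfl⟩ := (h.fix x).1 hx
      exact (mul_eq_zero.1 ((hz c).trans (by rw [z0, zero_mul]))).resolve_left k0
    obtain ⟨g, g1, gt, -⟩ := iv hd
    refine Or.inl fun u hu => ⟨(algebraMap (PA F Q) (PK F Q) d₀)⁻¹ • (μ (Ψ Y) * (g * u)), ?_⟩
    rw [Matrix.mul_smul, ← ad Y _ (kill gt hu), ← e, h1, map_mul, hS, Matrix.mul_assoc, ← Matrix.mul_assoc _ g,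
      g1, Matrix.one_mul, Matrix.smul_mul, smul_smul, inv_mul_cancel₀ d0, one_smul]
  · obtain ⟨d, hd, Y, e⟩ := tate p h.conj h.αp h.fiR (z • mp _ (e0 (R.comp j) W) - z' • P)
      (by rw [map_sub, map_smul, map_smul, T1P, T1e, smul_zero, smul_zero, sub_zero]) fun x hx => by
        obtain ⟨c, rfl⟩ := (h.fix x).1 hx
        refine (mul_eq_zero.1 ?_).resolve_left k0
        have a1 := hz c
        have a2 := hz' c
        rw [MonoidHom.comp_apply] at a1 a2
        rw [mul_sub, mul_smul_comm, mul_smul_comm, Matrix.trace_sub, Matrix.trace_smul, Matrix.trace_smul,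
          smul_eq_mul, smul_eq_mul]
        linear_combination z * a2 - z' * a1
    obtain ⟨g, g1, gt, gc⟩ := iv (mul_ne_zero hd z0)
    refine Or.inr ⟨algebraMap (PA F Q) (PK F Q) d₀ • (μ (φ (d * z')) * g), ((ct _).mul_right gt).smul_right _,
      fun c => ((cc _ c).mul_right (gc c)).smul_right _, fun u hu => ⟨μ (Ψ Y) * (g * u), ?_⟩⟩
    rw [← ad Y _ (kill gt hu), ← e, smul_sub, smul_smul, smul_smul, map_sub, h1, h1, pe, map_sub, map_mul μ,
      map_mul μ, mm, hS, Matrix.sub_mul, Matrix.mul_assoc, ← Matrix.mul_assoc _ g, g1, Matrix.one_mul]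
    simp only [Matrix.smul_mul, Matrix.mul_smul, Matrix.mul_assoc, add_sub_cancel]

end CL.DG
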