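import Cfsg.Agent.BLK.DG.Defs

/-! A fact of linear algebra.

PROOF of `nil`. If `ker T ≤ range (T^(p-1))` then for `i < p` the map `T^i` induces
`ker T^(i+1) / ker T^i ≃ ker T ⊓ range T^i = ker T`, so `finrank V = finrank (ker T^p) =
p * finrank (ker T)`, excluded. So pick `x ∈ ker T`, `x ∉ range T^(p-1)`, and `j` maximal with
`x ∈ range T^j` (`Nat.findGreatest`/`Nat.find` on `x ∉ range T^(j+1)`); `ξ` from
`Submodule.exists_dual_map_eq_bot_of_notMem` (or `exists_le_ker_of_notMem`), rescaled. -/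


namespace CL.DG

theorem nil {K V : Type*} [Field K] [AddCommGroup V] [Module K V] [FiniteDimensional K V]
    (T : Module.End K V) {p : ℕ} (hp : 0 < p) (hT : T ^ p = 0) (hV : ¬ p ∣ Module.finrank K V) :
    ∃ (j : ℕ) (y : V) (ξ : V →ₗ[K] K), T ((T ^ j) y) = 0 ∧ (∀ v, (T ^ j) y ≠ (T ^ (p - 1)) v) ∧
      ξ ((T ^ j) y) = 1 ∧ ∀ v, ξ ((T ^ (j + 1)) v) = 0 := by
  classical
  have le : ∀ {i k : ℕ}, i ≤ k → LinearMap.range (T ^ k) ≤ LinearMap.range (T ^ i) := fun {i k} h => by
    obtain ⟨d, rfl⟩ := Nat.exists_eq_add_of_le h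
    rw [pow_add]
    exact LinearMap.range_comp_le_range _ _
  have n : ¬ LinearMap.ker T ≤ LinearMap.range (T ^ (p - 1)) := fun h => by
    have key : ∀ i ≤ p, Module.finrank K (LinearMap.range (T ^ i)) + i * Module.finrank K (LinearMap.ker T) =
        Module.finrank K V := fun i => by
      induction i with
      | zero => intro _; rw [pow_zero, Module.End.one_eq_id, LinearMap.range_id, finrank_top, zero_mul, add_zero]
      | succ i ih =>
        intro hi
        have := (T.domRestrict (LinearMap.range (T ^ i))).finrank_range_add_finrank_ker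
        rw [LinearMap.range_domRestrict, LinearMap.ker_domRestrict,
          (Submodule.comapSubtypeEquivOfLe (h.trans (le (by omega)))).finrank_eq, ← LinearMap.range_comp] at this
        rw [← ih (by omega), ← this, pow_succ', add_mul, one_mul, Module.End.mul_eq_comp]
        omega
    have := key p le_rfl
    rw [hT, LinearMap.range_zero, finrank_bot, zero_add] at this
    exact hV ⟨_, this.symm⟩
  obtain ⟨x, hx, nx⟩ := SetLike.not_le_iff_exists.1 n
  have ex : ∃ j, x ∉ LinearMap.range (T ^ (j + 1)) := ⟨p - 1, fun h => nx (le (Nat.le_succ _) h)⟩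
  have m : x ∈ LinearMap.range (T ^ Nat.find ex) := by
    rcases h : Nat.find ex with _ | j
    · exact ⟨x, rfl⟩
    · exact not_not.1 (Nat.find_min ex (h ▸ Nat.lt_succ_self j))
  obtain ⟨y, hy⟩ := m
  obtain ⟨f, f1, f2⟩ := Submodule.exists_le_ker_of_notMem (Nat.find_spec ex)
  refine ⟨Nat.find ex, y, (f x)⁻¹ • f, (congrArg T hy).trans hx, fun v e => nx ⟨v, e.symm.trans hy⟩, ?_, fun v => ?_⟩
  · rw [hy, LinearMap.smul_apply, smul_eq_mul, inv_mul_cancel₀ f1]
  · rw [LinearMap.smul_apply, f2 ⟨v, rfl⟩, smul_zero]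

end CL.DG
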