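import Cfsg.Agent.BLK.DG.Key
import Cfsg.Agent.BLK.DG.Nil
import Cfsg.Agent.BLK.DG.Dim

/-! The Tate cohomology of the generic shifted element on the multiplicity space is a line.

PROOF. `K = PK F Q`, `U = UU K R' W`, `t = tt (yK F) r` commutes with `mp (R' c)` (`commute_tt`,
`Data.comm`), `T` = left multiplication by `t` restricted to `U`, `T ^ p = 0` (`tt_pow`),
`p ∤ finrank U` (`dimU`, `CharP K p`). `nil` gives `j, y, ξ`, `x = t^j y`. Write
`ξ ∘ Pr = tr (Y * ·)` with `Y : Matrix m n K` (`Y k i = ξ (Pr (single i k 1))`). Then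
`mp (W c) * Y = Y * mp (R' c)` and `Y * t^(j+1) = 0` (test against all `X`). For `u ∈ U`, `Y * u`
commutes with all `mp (W c)`, so it is a scalar `λ • 1` (`FI.ext`), `ξ u = λ * card m`.
`S = ∑ i in range (j+1), t^i * y * Y * t^(j-i)` commutes with `t` (telescope, `t^(j+1) y = 0`),
with `mp (R' c)`, and `mp e0 * S = κ' • S` (`mp e0 * y = y * ∑ tr W c⁻¹ • W c = κ' • y`).
For `u ∈ U`, `t u = 0`: `S * u = λ(u) • x`, and `λ(x) ≠ 0` since `ξ x = 1`.
`key` first case with `u = x`: `λ • x = t^(p-1) v`, apply `Pr`: contradiction. Second case: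
`κ' • u = mp e0 * u = λ(B u) • x + t^(p-1) v`; apply `Pr`, divide by `κ'`. -/

namespace CL.DG

theorem Line.scal {F K C m : Type*} [Field F] [Field K] [Algebra F K] [Group C] [Fintype C]
    [Fintype m] [DecidableEq m] {W : C →* Matrix m m F} {κ' : F} (h : FI W κ')
    {Z : Matrix m m K} (hZ : ∀ c, mp K (W c) * Z = Z * mp K (W c)) :
    ∃ a : K, Z = a • (1 : Matrix m m K) := by
  have k0 : algebraMap F K κ' ≠ 0 := (map_ne_zero _).2 h.1
  have hX : ∀ X : Matrix m m K, Commute X Z := by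
    intro X
    have e : X = (algebraMap F K κ')⁻¹ • ∑ x, (mp K (W x⁻¹) * X).trace • mp K (W x) := by
      rw [h.ext K X, smul_smul, inv_mul_cancel₀ k0, one_smul]
    rw [e]
    exact Commute.smul_left (Commute.sum_left _ _ _ fun c _ => Commute.smul_left (hZ c) _) _
  obtain ⟨a, ha⟩ := Matrix.mem_range_scalar_iff_commute_single'.2 fun i l => hX (Matrix.single i l 1)
  refine ⟨a, ?_⟩
  rw [← ha, Matrix.scalar_apply, Matrix.smul_one_eq_diagonal]

theorem Line.e0_mul {F K C n m : Type*} [Field F] [Field K] [Algebra F K] [Group C] [Fintype C]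
    [Fintype n] [DecidableEq n] [Fintype m] [DecidableEq m] {R' : C →* Matrix n n F}
    {W : C →* Matrix m m F} {κ' : F} (h : FI W κ') {u : Matrix n m K} (hu : u ∈ UU K R' W) :
    mp K (e0 R' W) * u = algebraMap F K κ' • u := by
  have e := h.ext K 1
  have : mp K (e0 R' W) * u = u * ∑ x, (mp K (W x⁻¹) * 1).trace • mp K (W x) := by
    rw [e0, map_sum, Matrix.sum_mul, Matrix.mul_sum]
    refine Finset.sum_congr rfl fun c _ => ?_
    rw [mp_smul, Matrix.smul_mul, Matrix.mul_smul, mem_UU.1 hu c, mul_one, trace_mp]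
  rw [this, e, Matrix.mul_smul, Matrix.mul_one]

theorem Line.dual {K n m : Type*} [Field K] [Fintype n] [DecidableEq n] [Fintype m]
    [DecidableEq m] (ξ : Matrix n m K →ₗ[K] K) :
    ∃ Y : Matrix m n K, ∀ X, ξ X = (Y * X).trace := by
  refine ⟨Matrix.of fun a i => ξ (Matrix.single i a 1), fun X => ?_⟩
  conv_lhs => rw [Matrix.matrix_eq_sum_single X]
  simp only [map_sum, Matrix.trace, Matrix.diag_apply, Matrix.mul_apply, Matrix.of_apply]
  rw [Finset.sum_comm]
  refine Finset.sum_congr rfl fun a _ => Finset.sum_congr rfl fun i _ => ?_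
  have : (Matrix.single i a (X i a) : Matrix n m K) = X i a • Matrix.single i a 1 := by
    rw [Matrix.smul_single, smul_eq_mul, mul_one]
  rw [this, map_smul, smul_eq_mul, mul_comm]

theorem Line.ext {K n m : Type*} [Field K] [Fintype n] [DecidableEq n] [Fintype m]
    [DecidableEq m] {A B : Matrix m n K} (h : ∀ X : Matrix n m K, (A * X).trace = (B * X).trace) :
    A = B := by
  ext a i
  have := h (Matrix.single i a 1)
  simpa [Matrix.trace_mul_single] using this

variable {F Q N C n m : Type*} [Field F] [CommGroup Q] [Fintype Q] [Group N] [Fintype N]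
  [Group C] [Fintype C] [Fintype n] [DecidableEq n] [Fintype m] [DecidableEq m]
  {p : ℕ} [Fact p.Prime] [CharP F p] {α : Q →* MulAut N} {R : N →* Matrix n n F}
  {r : Q →* Matrix n n F} {j : C →* N} {W : C →* Matrix m m F} {κ κ' : F}

theorem line (h : Data p α R r j W κ κ') :
    ∃ x ∈ UU (PK F Q) (R.comp j) W, tt (yK F) r * x = 0 ∧
      (∀ v ∈ UU (PK F Q) (R.comp j) W, x ≠ tt (yK F) r ^ (p - 1) * v) ∧
      ∀ u ∈ UU (PK F Q) (R.comp j) W, tt (yK F) r * u = 0 →
        ∃ a : PK F Q, ∃ v ∈ UU (PK F Q) (R.comp j) W,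
          u = a • x + tt (yK F) r ^ (p - 1) * v := by
  set K := PK F Q with hK
  set R' := R.comp j with hR'
  set U := UU K R' W with hU
  set t : Matrix n n K := tt (yK F) r with ht0
  have hp : p.Prime := Fact.out
  have ht : ∀ c, Commute (mp K (R' c)) t := fun c =>
    (commute_tt (yK F) (fun g => h.comm g c)).symm
  have mulU : ∀ M : Matrix n n K, (∀ c, Commute (mp K (R' c)) M) → ∀ u ∈ U, M * u ∈ U := by
    intro M hM u hu c
    rw [← Matrix.mul_assoc, (hM c).eq, Matrix.mul_assoc, mem_UU.1 hu c, Matrix.mul_assoc]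
  let L : Module.End K (Matrix n m K) :=
    { toFun := fun X => t * X
      map_add' := fun a b => Matrix.mul_add _ _ _
      map_smul' := fun a X => by simp only [Matrix.mul_smul, RingHom.id_apply] }
  let T : Module.End K U := L.restrict (fun u hu => mulU t ht u hu)
  have hT : ∀ (k : ℕ) (u : U), (((T ^ k) u : U) : Matrix n m K) = t ^ k * (u : Matrix n m K) := by
    intro k
    induction k with
    | zero => intro u; simp
    | succ k ih =>
      intro u
      rw [pow_succ', Module.End.mul_apply, pow_succ', Matrix.mul_assoc, ← ih u]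
      rfl
  have hTp : T ^ p = 0 := by
    ext u : 1
    apply Subtype.ext
    rw [hT, ht0, tt_pow p (yK F) h.rp, Matrix.zero_mul]
    rfl
  obtain ⟨hd, Pr, P1, P2, P3, P4⟩ := dimU (K := K) R' W h.card h.link
  have : CharP K p := charP_of_injective_algebraMap (algebraMap F K).injective p
  have hV : ¬ p ∣ Module.finrank K U := fun hdv => hd ((CharP.cast_eq_zero_iff K p _).2 hdv)
  obtain ⟨k, y, ξ, n1, n2, n3, n4⟩ := nil T hp.pos hTp hV
  obtain ⟨Y, hY⟩ := Line.dual (ξ.comp (Pr.codRestrict U P1))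
  have hY' : ∀ X, ξ ⟨Pr X, P1 X⟩ = (Y * X).trace := hY
  set x : Matrix n m K := t ^ k * (y : Matrix n m K) with hx
  have xU : x ∈ U := mulU _ (fun c => (ht c).pow_right k) _ y.2
  have tk : t ^ (k + 1) * (y : Matrix n m K) = 0 := by
    have := congrArg Subtype.val n1
    rw [← Module.End.mul_apply, ← pow_succ', hT] at this
    exact this
  have tx : t * x = 0 := by rw [hx, ← Matrix.mul_assoc, ← pow_succ', tk]
  have nx : ∀ v ∈ U, x ≠ t ^ (p - 1) * v := by
    intro v hv e
    refine n2 ⟨v, hv⟩ (Subtype.ext ?_)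
    rw [hT, hT]
    exact e
  have WY : ∀ c, mp K (W c) * Y = Y * mp K (R' c) := by
    intro c
    refine Line.ext fun X => ?_
    rw [Matrix.mul_assoc Y, ← hY', Matrix.mul_assoc, Matrix.trace_mul_comm, Matrix.mul_assoc,
      ← hY']
    congr 1
    exact Subtype.ext (P3 c X).symm
  have Yt : Y * t ^ (k + 1) = 0 := by
    refine Line.ext fun X => ?_
    rw [Matrix.mul_assoc, ← hY', Matrix.zero_mul, Matrix.trace_zero, ← n4 ⟨Pr X, P1 X⟩]
    congr 1
    apply Subtype.ext
    rw [hT]
    exact P4 _ (fun c => (ht c).pow_right _) X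
  have sc : ∀ u ∈ U, ∃ a : K, Y * u = a • (1 : Matrix m m K) := by
    intro u hu
    refine Line.scal h.fiW fun c => ?_
    rw [← Matrix.mul_assoc, WY, Matrix.mul_assoc, mem_UU.1 hu c, Matrix.mul_assoc]
  set S : Matrix n n K :=
    ∑ i ∈ Finset.range (k + 1), t ^ i * ((y : Matrix n m K) * Y) * t ^ (k - i) with hS
  have tS : Commute t S := by
    have tel := Finset.sum_range_sub
      (fun i => t ^ i * ((y : Matrix n m K) * Y) * t ^ (k + 1 - i)) (k + 1)
    have z1 : t ^ (k + 1) * ((y : Matrix n m K) * Y) = 0 := by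
      rw [← Matrix.mul_assoc, tk, Matrix.zero_mul]
    have z2 : t ^ 0 * ((y : Matrix n m K) * Y) * t ^ (k + 1 - 0) = 0 := by
      rw [pow_zero, one_mul, Nat.sub_zero, Matrix.mul_assoc, Yt, Matrix.mul_zero]
    rw [z1, z2, zero_mul, sub_zero, Finset.sum_sub_distrib, sub_eq_zero] at tel
    have a1 : t * S = ∑ i ∈ Finset.range (k + 1),
        t ^ (i + 1) * ((y : Matrix n m K) * Y) * t ^ (k + 1 - (i + 1)) := by
      rw [hS, Finset.mul_sum]
      refine Finset.sum_congr rfl fun i _ => ?_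
      rw [Nat.add_sub_add_right, pow_succ', mul_assoc, mul_assoc, mul_assoc]
    have a2 : S * t = ∑ i ∈ Finset.range (k + 1),
        t ^ i * ((y : Matrix n m K) * Y) * t ^ (k + 1 - i) := by
      rw [hS, Finset.sum_mul]
      refine Finset.sum_congr rfl fun i hi => ?_
      have : k + 1 - i = (k - i) + 1 := by have := Finset.mem_range.1 hi; omega
      rw [this, pow_succ, mul_assoc]
    exact a1.trans (tel.trans a2.symm)
  have CyY : ∀ c, Commute (mp K (R' c)) ((y : Matrix n m K) * Y) := by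
    intro c
    show mp K (R' c) * ((y : Matrix n m K) * Y) = (y : Matrix n m K) * Y * mp K (R' c)
    rw [← Matrix.mul_assoc, mem_UU.1 y.2 c, Matrix.mul_assoc, WY, Matrix.mul_assoc]
  have CS : ∀ c, Commute (mp K (R' c)) S := fun c =>
    Commute.sum_right _ _ _ fun i _ =>
      (((ht c).pow_right _).mul_right (CyY c)).mul_right ((ht c).pow_right _)
  have eS : mp K (e0 R' W) * S = algebraMap F K κ' • S := by
    rw [hS, Finset.mul_sum, Finset.smul_sum]
    refine Finset.sum_congr rfl fun i _ => ?_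
    have := Line.e0_mul h.fiW (mulU _ (fun c => (ht c).pow_right i) _ y.2)
    rw [← Matrix.mul_assoc (t ^ i), ← mul_assoc, ← Matrix.mul_assoc, this, Matrix.smul_mul,
      smul_mul_assoc]
  have Su : ∀ u ∈ U, t * u = 0 → ∃ a : K, Y * u = a • (1 : Matrix m m K) ∧ S * u = a • x := by
    intro u hu tu
    obtain ⟨a, ha⟩ := sc u hu
    refine ⟨a, ha, ?_⟩
    rw [hS, Finset.sum_range_succ, Matrix.add_mul, Matrix.sum_mul, Finset.sum_eq_zero, zero_add,
      Nat.sub_self, pow_zero, mul_one, Matrix.mul_assoc, Matrix.mul_assoc, ha, Matrix.mul_smul,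
      Matrix.mul_one, Matrix.mul_smul]
    intro i hi
    have : k - i = (k - i - 1) + 1 := by have := Finset.mem_range.1 hi; omega
    rw [this, pow_succ, Matrix.mul_assoc, Matrix.mul_assoc (t ^ (k - i - 1)), tu, Matrix.mul_zero,
      Matrix.mul_zero]
  refine ⟨x, xU, tx, nx, ?_⟩
  have Pt : ∀ v, Pr (t ^ (p - 1) * v) = t ^ (p - 1) * Pr v :=
    P4 _ fun c => (ht c).pow_right _
  rcases key h S tS CS eS with k1 | ⟨B, tB, CB, k2⟩
  · exfalso
    obtain ⟨v, hv⟩ := k1 x tx
    obtain ⟨a, ha, hb⟩ := Su x xU tx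
    have a0 : a ≠ 0 := by
      rintro rfl
      have := hY' x
      rw [ha, zero_smul, Matrix.trace_zero] at this
      have e : (⟨Pr x, P1 x⟩ : U) = (T ^ k) y := Subtype.ext (by rw [hT]; exact P2 x xU)
      rw [e, n3] at this
      exact one_ne_zero this
    have := congrArg Pr (hb.symm.trans hv)
    rw [map_smul, P2 x xU, Pt] at this
    refine nx (a⁻¹ • Pr v) (U.smul_mem _ (P1 v)) ?_
    rw [Matrix.mul_smul, ← this, smul_smul, inv_mul_cancel₀ a0, one_smul]
  · intro u hu tu
    obtain ⟨v, hv⟩ := k2 u tu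
    have tBu : t * (B * u) = 0 := by
      rw [← Matrix.mul_assoc, tB.eq, Matrix.mul_assoc, tu, Matrix.mul_zero]
    obtain ⟨a, -, hb⟩ := Su (B * u) (mulU B CB u hu) tBu
    rw [hb, Line.e0_mul h.fiW hu] at hv
    have := congrArg Pr hv
    rw [map_smul, P2 u hu, map_add, map_smul, P2 x xU, Pt] at this
    have k0 : algebraMap F K κ' ≠ 0 := (map_ne_zero _).2 h.fiW.1
    refine ⟨(algebraMap F K κ')⁻¹ * a, (algebraMap F K κ')⁻¹ • Pr v, U.smul_mem _ (P1 v), ?_⟩
    rw [Matrix.mul_smul, mul_smul, ← smul_add, ← this, smul_smul, inv_mul_cancel₀ k0, one_smul]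

end CL.DG
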