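import Cfsg.Agent.BLK.DG.CDefs

/-! Block induction and the Glauberman link.

PROOF. `e = amb iN (blockIdem {θ})` is central in `ℂ[T]` (coefficients `blockCoeff_singleton`,
`hn`, `hinv`), integral (`p ∤ |N|`). `ω_χ e = 1` for the `χ ∈ B` over `θ` (Clifford:
`χ ∘ iN = a θ`), so `lamB B (redA e) = 1`, and `hi` gives `red (ω_η (res f e)) = 1`.
`ω_η (res f e) = θ 1 * |K| / (|N| * η 1) * ⟨η ∘ iK, θ ∘ j⟩` (support of `res f e` is `iK K`).
`iK.range` is normal in `U`, `θ ∘ j` is `U`-invariant; by Clifford all constituents `ξ` of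
`η ∘ iK` are conjugate to `φ`: same degree, same multiplicity `m` in `θ ∘ j`. So
`⟨η ∘ iK, θ ∘ j⟩ = m * η 1 / φ 1`, and `θ 1 * |K| * m / (|N| * φ 1) ≡ 1` forces `p ∤ m`
(`φ 1 ∣ |K| ∣ |N|`). It may help to replace `N, K` by `iN.range, iK.range` first. -/

set_option autoImplicit false

open Cfsg Subgroup CL.Char CL.Blk
open scoped Classical

namespace CL.DG

theorem Lk.omega_over {U K : Type*} [Group U] [Finite U] [Group K] [Fintype K] {i : K →* U}
    {η : U → ℂ} (hη : IsIrrCharacter U η) (φ : IrrCharacter K)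
    (h : classInner (fun k => η (i k)) φ.1 ≠ 0) {z : MonoidAlgebra ℂ K} (hz : IsCentral z)
    (hz' : IsCentral (amb i z)) : omega η (amb i z) = omega φ.1 z := by
  have e := charLin_central_mul hη hz' (amb i (blockIdem {φ}))
  rw [← map_mul, hz.mul_blockIdem_singleton φ, map_smul, map_smul, smul_eq_mul] at e
  refine (mul_right_cancel₀ (fun k => h ?_) e).symm
  rw [charLin_amb, charLin_blockIdem_eq_zero_iff (hη.isCharacter.comp i)] at k
  exact k φ rfl

theorem lnk_of_ind {p : ℕ} {M : Ideal AlgInt} (hM : IsPModular p M) {T U N K : Type*} [Group T]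
    [Finite T] [Group U] [Finite U] [Group N] [Fintype N] [Group K] [Fintype K]
    (hN : ¬ p ∣ Nat.card N) (iN : N →* T) (f : U →* T) (iK : K →* U) (j : K →* N)
    (hiN : Function.Injective iN) (hf : Function.Injective f) (hiK : Function.Injective iK)
    (hsq : ∀ k, iN (j k) = f (iK k)) (hpb : ∀ u n, f u = iN n → ∃ k, iK k = u)
    (hn : iN.range.Normal) {θ : N → ℂ} (hθ : IsIrrCharacter N θ)
    (hinv : ∀ t n n', iN n' = t * iN n * t⁻¹ → θ n' = θ n) {B : Set (IrrCharacter T)}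
    (hB : IsPBlock M B) {χ : IrrCharacter T} (hχ : χ ∈ B)
    (hχθ : classInner (fun n => χ.1 (iN n)) θ ≠ 0) {c : Set (IrrCharacter U)}
    (hc : IsPBlock M c) (hi : IndAlong f (lamB M c) (lamB M B)) {η : IrrCharacter U}
    (hη : η ∈ c) {φ : K → ℂ} (hφ : IsIrrCharacter K φ)
    (hηφ : classInner (fun k => η.1 (iK k)) φ ≠ 0) : Lnk p (fun k => θ (j k)) φ := by
  set ϑ : IrrCharacter N := ⟨θ, hθ⟩ with hϑ
  have nu : ∀ n : ℕ, ¬ p ∣ n → (n : ℂ) ∉ (V M).nonunits := fun n k m => k ((natCast_mem_nonunits_iff hM n).1 m)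
  have co : ∀ n, (blockIdem {ϑ}).coeff n = (Nat.card N : ℂ)⁻¹ * (θ 1 * (starRingEnd ℂ) (θ n)) := fun n => by
    rw [coeff_blockIdem, blockCoeff_singleton]
  have ii : IsInt M (blockIdem {ϑ}) := fun n => by
    rw [co]
    exact mul_mem (inv_mem_V_of_notMem (nu _ hN)) (mul_mem (mem_V_of_isIntegral (hθ.isCharacter.isIntegral 1))
      (mem_V_of_isIntegral ((hθ.isCharacter.isIntegral n).map (starRingEnd ℂ).toIntAlgHom)))
  have ce : IsCentral (amb iN (blockIdem {ϑ})) := fun g t => by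
    by_cases m : g ∈ iN.range
    · obtain ⟨n', e⟩ := hn.conj_mem g m t
      obtain ⟨n, rfl⟩ := m
      rw [← e, coeff_amb_apply hiN, coeff_amb_apply hiN, co, co, hinv t n n' e]
    · rw [coeff_amb_of_notMem _ _ m, coeff_amb_of_notMem]
      exact fun k => m (by simpa [mul_assoc] using hn.conj_mem _ k t⁻¹)
  have c0 : IsCentral (blockIdem {ϑ}) := by
    simpa only [res_amb hiN] using ce.res iN
  have rs : res f (amb iN (blockIdem {ϑ})) = amb iK (res j (blockIdem {ϑ})) := ga_ext fun u => by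
    rw [coeff_res]
    by_cases m : u ∈ iK.range
    · obtain ⟨k, rfl⟩ := m
      rw [← hsq, coeff_amb_apply hiN, coeff_amb_apply hiK, coeff_res]
    · rw [coeff_amb_of_notMem _ _ m, coeff_amb_of_notMem]
      exact fun ⟨n, e⟩ => m (hpb u n e.symm)
  have e := hi _ ce.redA
  rw [← redA_res, lamB_redA hM hc hη (ce.res f) ((ii.amb iN).res f), lamB_redA hM hB hχ ce (ii.amb iN),
    Lk.omega_over χ.2 ϑ hχθ c0 ce, omega_blockIdem_of_mem (Set.mem_singleton ϑ), red_one, rs,
    Lk.omega_over η.2 ⟨φ, hφ⟩ hηφ (c0.res j) (rs ▸ ce.res f)] at e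
  obtain ⟨m, hm⟩ := (hθ.isCharacter.comp j).exists_nat_inner hφ.isCharacter
  refine ⟨m, hm, fun hp => ?_⟩
  have jK : Nat.card K ∣ Nat.card N := card_dvd_of_injective j fun a b k => hiK (hf (by rw [← hsq, ← hsq, k]))
  have w : omega φ (res j (blockIdem {ϑ})) = θ 1 * Nat.card K * m / (Nat.card N * charDegree φ : ℕ) := by
    have k := congrArg (starRingEnd ℂ) hm
    rw [classInner_conj_symm, map_natCast, classInner,
      inv_mul_eq_iff_eq_mul₀ (Nat.cast_ne_zero.2 Nat.card_pos.ne')] at k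
    rw [omega_apply, charLin_apply, mul_assoc, ← k, Nat.cast_mul, ← hφ.apply_one_eq_charDegree, ← div_div,
      div_eq_inv_mul (θ 1 * _), Finset.mul_sum, Finset.mul_sum]
    congr 1
    exact Finset.sum_congr rfl fun k _ => by rw [coeff_res, co]; ring
  change red M (omega φ _) = 1 at e
  rw [w, red_eq_zero_of_mem (div_mem_nonunits (mul_mem_nonunits_left (mul_mem
    (mem_V_of_isIntegral (hθ.isCharacter.isIntegral 1)) (natCast_mem _ _)) ((natCast_mem_nonunits_iff hM m).2 hp))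
    (nu _ fun k => hN (((Nat.Prime.dvd_mul hM.1).1 k).elim id fun k => k.trans (hφ.charDegree_dvd_card.trans jK))))] at e
  exact zero_ne_one e

end CL.DG
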