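import Cfsg.Agent.BLK.DG.CDefs
import Cfsg.Agent.S4444

/-! Stabilisers of Glauberman correspondents; a Frattini argument.

PROOF of `stab`. `C = N ⊓ C(P)`, `f` maps `K = N.comap f` isomorphically onto `C`
(`mem_centralizer_of_inf_eq_bot`); transport `φ` to `C`. For `x : H`, `θ^(f x)` is
`P`-invariant (`f x` normalises `P`) and linked with `φ^x` (reindex). S4444 (i) gives `⊇`,
(iii) gives `⊆`.
PROOF of `frat`. `exists_normal_center_sylow_le` (`IsPSolvable.isPConstrained`) gives a normal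
`A`, `O ≤ A ≤ O_{p',p}`, `P = Z(P) ≤ A`; `O_{p',p} ≤ O ⊔ P`; Frattini
(`Sylow.normalizer_sup_eq_top'`). Second part: the image of `O_{p'}(N(P))` in `G / O` is a normal
`p'`-subgroup (or: `O ⊔ O_{p'}(N P)` is a normal `p'`-subgroup of `G`). -/

set_option autoImplicit false

open Cfsg Subgroup CL.Char CL.Blk
open scoped Classical

namespace CL.DG

theorem stab {p : ℕ} (hp : p.Prime) {G H : Type*} [Group G] [Finite G] [Group H] [Finite H]
    {N P : Subgroup G} [N.Normal] (hN : ¬ p ∣ Nat.card N) (hP : IsPGroup p P) {θ : N → ℂ}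
    (hθ : IsIrrCharacter N θ) (hPT : P ≤ inertia N θ) (f : H →* G) (hf : Function.Injective f)
    (hr : f.range = normalizer (P : Set G)) [Fintype (N.comap f)] {φ : N.comap f → ℂ}
    (hφ : IsIrrCharacter _ φ) (hl : Lnk p (fun k : N.comap f => θ ⟨f k.1, k.2⟩) φ) :
    inertia (N.comap f) φ = (inertia N θ).comap f := by
  have := Fact.mk hp
  have := Fintype.ofFinite G
  have := Fintype.ofFinite N
  have hcop : (Nat.card N).Coprime p := (hp.coprime_iff_not_dvd.2 hN).symm
  have hinf : P ⊓ N = ⊥ := CL.inf_eq_bot_of_isPGroup_of_coprime hP hcop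
  have nf : ∀ x : H, f x ∈ normalizer (P : Set G) := fun x => hr ▸ ⟨x, rfl⟩
  obtain ⟨C, hC⟩ : ∃ C : Subgroup G, C = N ⊓ centralizer (P : Set G) := ⟨_, rfl⟩
  have := Fintype.ofFinite C
  have hCG : C ≤ N := hC ▸ inf_le_left
  have mem : ∀ k : N.comap f, f k.1 ∈ C := fun k =>
    hC ▸ ⟨k.2, mem_centralizer_of_inf_eq_bot le_normalizer_of_normal hinf k.2 (nf k.1)⟩
  let e₀ : N.comap f →* C := (f.comp (N.comap f).subtype).codRestrict C mem
  have bij : Function.Bijective e₀ := by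
    refine ⟨fun a b h => Subtype.ext (hf (congrArg Subtype.val h)), fun c => ?_⟩
    have hc := c.2
    obtain ⟨x, hx⟩ : c.1 ∈ f.range := by
      rw [hr]
      exact centralizer_le_normalizer _ (hC ▸ hc : c.1 ∈ N ⊓ centralizer (P : Set G)).2
    exact ⟨⟨x, show f x ∈ N from hx ▸ hCG hc⟩, Subtype.ext hx⟩
  let e : N.comap f ≃* C := MulEquiv.ofBijective e₀ bij
  have lk : ∀ (ψ : N → ℂ) (φ' : N.comap f → ℂ),
      classInner (fun c : C => ψ ⟨c, hCG c.2⟩) (fun c => φ' (e.symm c)) =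
        classInner (fun k : N.comap f => ψ ⟨f k.1, k.2⟩) φ' := by
    intro ψ φ'
    rw [← classInner_comp_equiv e.toEquiv]
    congr 1
    funext k
    exact congrArg φ' (e.symm_apply_apply k)
  have inv : ∀ x : H, ∀ s ∈ P, ∀ g g' : N, (g' : G) = s * g * s⁻¹ →
      conjN N (f x) θ g' = conjN N (f x) θ g := by
    intro x s hs g g' h
    rw [conjN_apply, conjN_apply, ← hPT ((mem_normalizer_iff.1 (nf x) s).1 hs) ⟨f x * g * (f x)⁻¹, _⟩]
    congr 1
    refine Subtype.ext ?_
    show f x * g' * (f x)⁻¹ = f x * s * (f x)⁻¹ * (f x * g * (f x)⁻¹) * (f x * s * (f x)⁻¹)⁻¹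
    rw [h]
    group
  have inv1 : ∀ s ∈ P, ∀ g g' : N, (g' : G) = s * g * s⁻¹ → θ g' = θ g := by
    have := inv 1
    rwa [map_one, conjN_one] at this
  obtain ⟨m, hm, pm⟩ := hl
  have lx : ∀ x : H, classInner (fun k : N.comap f => conjN N (f x) θ ⟨f k.1, k.2⟩)
      (conjN (N.comap f) x φ) = (m : ℂ) := by
    intro x
    rw [← hm, ← classInner_conjN_conjN x (fun k : N.comap f => θ ⟨f k.1, k.2⟩) φ]
    congr 1
    funext k
    rw [conjN_apply, conjN_apply]
    congr 1
    exact Subtype.ext (by simp)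
  obtain ⟨k, hk⟩ := IsPGroup.iff_card.1 hP
  obtain ⟨r1, -, r3, -⟩ := Cfsg.Agent.S4444.result N P
    (fun s _ g hg => (inferInstance : N.Normal).conj_mem g hg s) (hk ▸ hcop.pow_right k) p hp hP C hC hCG
  ext x
  rw [mem_comap, mem_inertia_iff, mem_inertia_iff]
  constructor
  · intro h
    have := lx x
    rw [h] at this
    exact congrArg Subtype.val (r3 ⟨_, hθ.conjN (f x)⟩ ⟨θ, hθ⟩ (inv x) inv1
      ⟨_, hφ.comp_mulEquiv e.symm⟩ m m ((lk _ _).trans this) pm ((lk _ _).trans hm) pm)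
  · intro h
    have := lx x
    rw [h] at this
    have u := congrArg Subtype.val ((r1 ⟨θ, hθ⟩ inv1).unique
      (y₁ := ⟨_, (hφ.conjN x).comp_mulEquiv e.symm⟩) (y₂ := ⟨_, hφ.comp_mulEquiv e.symm⟩)
      ⟨m, (lk _ _).trans this, pm⟩ ⟨m, (lk _ _).trans hm, pm⟩)
    funext k
    simpa using congrFun u (e k)

theorem frat {p : ℕ} [Fact p.Prime] {G : Type*} [Group G] [Finite G] (hG : IsPSolvable p G)
    (P : Sylow p G) (hab : ∀ x ∈ (P : Subgroup G), ∀ y ∈ (P : Subgroup G), x * y = y * x) :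
    pPrimeCore p G ⊔ normalizer ((P : Subgroup G) : Set G) = ⊤ ∧
      (pPrimeCore p G).subgroupOf (normalizer ((P : Subgroup G) : Set G)) =
        pPrimeCore p (normalizer ((P : Subgroup G) : Set G)) := by
  have h1 := CL.IsPSolvable.sylow_sup_pPrimeCore_of_comm hG P
    ⟨⟨fun a b => Subtype.ext (hab a a.2 b b.2)⟩⟩
  have h2 : normalizer ((P : Subgroup G) : Set G) ⊔ pPrimePCore p G = ⊤ :=
    Sylow.normalizer_sup_eq_top' P (N := pPrimePCore p G) (h1 ▸ le_sup_left)
  have h3 : pPrimeCore p G ⊔ normalizer ((P : Subgroup G) : Set G) = ⊤ := by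
    rw [← h1, ← sup_assoc, sup_of_le_left le_normalizer, sup_comm] at h2
    exact h2
  refine ⟨h3, ?_⟩
  let π := (QuotientGroup.mk' (pPrimeCore p G)).comp (normalizer ((P : Subgroup G) : Set G)).subtype
  have hk : π.ker = (pPrimeCore p G).subgroupOf (normalizer ((P : Subgroup G) : Set G)) := by
    ext x
    rw [MonoidHom.mem_ker, mem_subgroupOf]
    exact QuotientGroup.eq_one_iff _
  have hs : Function.Surjective π := by
    rw [← MonoidHom.range_eq_top, MonoidHom.range_comp, range_subtype]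
    have := congrArg (map (QuotientGroup.mk' (pPrimeCore p G))) h3
    rwa [Subgroup.map_sup, (CL.map_mk'_eq_bot_iff _ _).2 le_rfl, bot_sup_eq,
      map_top_of_surjective _ (QuotientGroup.mk'_surjective _)] at this
  rw [← CL.comap_pPrimeCore hs (hk ▸ CL.coprime_of_le_pPrimeCore (CL.pPrimeCore_subgroupOf_le _)),
    CL.pPrimeCore_quotient_pPrimeCore, MonoidHom.comap_bot, hk]

end CL.DG
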