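import Cfsg.Agent.BLK.DG.Lk
import Cfsg.Agent.BLK.DG.Stab

/-! Fong-Reynolds reduction on the normaliser side.

PROOF. `T = inertia N θ`, `P = D.map T.subtype`, `U = T.comap f`, `f' = f.subgroupComap T`,
`f'.range = N_T(D)` (`map_normalizer_comap`). `first_main_surj`/`first_main_surj'` for `f'` and
`isBlk_eB B'` gives a block `c'` of `U` (dictionary BLK/Dict, BLK/Defect) with defect group
`D.comap f'` and `IndAlong f'`. `K = N.comap f ≤ U`; pick `η ∈ c'`, `φ ∈ Irr K` under `η`.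
`lnk_of_ind` (`iN, iK` inclusions) and `stab` give `inertia K φ = U`. `fr_exists` (with
`b = {φ}`, `isPBlock_singleton_of_not_dvd`, `mem_inertia_iff_cjN_eB`) gives `c₁` induced by
`c'`; for central `z`: `lam c₁ (res f z) = lam c' (res U.subtype (res f z)) =
lam c' (res f' (res T.subtype z)) = lam B' (res T.subtype z) = lam B z`; `first_main_inj` gives
`c₁ = c`; `isFR_of_stab`. -/

set_option autoImplicit false

open Cfsg Subgroup CL.Char CL.Blk
open scoped Classical

namespace CL.DG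

theorem red_side {p : ℕ} {M : Ideal AlgInt} (hM : IsPModular p M) {G H : Type*} [Group G]
    [Fintype G] [Group H] [Fintype H] {N : Subgroup G} [N.Normal] [Fintype N]
    (hN : ¬ p ∣ Nat.card N) (θ : IrrCharacter N)
    {B' : Set (IrrCharacter (inertia N (θ : N → ℂ)))} {B : Set (IrrCharacter G)}
    (hcov : OverLE (le_inertia θ.2.isClassFunction) B' {θ}) (hfr : IsFR p M _ B' B)
    {D : Subgroup (inertia N (θ : N → ℂ))} (hD : IsDefectGroup p M B' D) (f : H →* G)
    (hf : Function.Injective f)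
    (hr : f.range = normalizer (D.map (inertia N (θ : N → ℂ)).subtype : Set G))
    {c : Set (IrrCharacter H)} (hc : IsPBlock M c)
    (hcD : IsDefectGroup p M c ((D.map (inertia N (θ : N → ℂ)).subtype).comap f))
    (hi : IndAlong f (lamB M c) (lamB M B)) :
    ∃ (f' : (inertia N (θ : N → ℂ)).comap f →* inertia N (θ : N → ℂ))
      (c' : Set (IrrCharacter ((inertia N (θ : N → ℂ)).comap f))), Function.Injective f' ∧
      f'.range = normalizer (D : Set (inertia N (θ : N → ℂ))) ∧ IsPBlock M c' ∧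
      IsDefectGroup p M c' (D.comap f') ∧ IndAlong f' (lamB M c') (lamB M B') ∧
      IsFR p M _ c' c := by
  have hNT := le_inertia θ.2.isClassFunction
  obtain ⟨hB', hB, hi'⟩ := (isInducedBlock_iff hM).1 hfr.ind
  let f' := f.subgroupComap (inertia N (θ : N → ℂ))
  have f'a : ∀ u, (f' u : G) = f u := fun _ => rfl
  have hf' : Function.Injective f' := fun a b e => Subtype.ext (hf (congrArg Subtype.val e))
  have hr' : f'.range = normalizer (D : Set (inertia N (θ : N → ℂ))) := by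
    have e := map_normalizer_comap (inertia N (θ : N → ℂ)).subtype_injective
      (map_le_range _ D)
    rw [comap_map_eq_self_of_injective (subtype_injective _), range_subtype, ← hr] at e
    ext t
    refine ⟨?_, fun ht => ?_⟩
    · rintro ⟨u, rfl⟩
      obtain ⟨t, ht, e'⟩ := e.ge (show (f' u : G) ∈ _ from ⟨⟨u, rfl⟩, (f' u).2⟩)
      rwa [← Subtype.ext e']
    · obtain ⟨⟨u, e'⟩, -⟩ := e.le (mem_map_of_mem _ ht)
      exact ⟨⟨u, by rw [mem_comap, e']; exact t.2⟩, Subtype.ext e'⟩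
  obtain ⟨b, μ, hb, hbD, hbi⟩ := first_main_surj' hM.1 (natCast_F hM) hf' hr'.ge (isBlk_eB hM hB')
    (hD.isDef hM hB')
  obtain ⟨c', hc', rfl, hci⟩ := exists_block_of_indAlong hM hb hbi
  refine ⟨f', c', hf', hr', hc', (isDefectGroup_iff hM hc').2 hbD, hci, ?_⟩
  have hKU : N.comap f ≤ (inertia N (θ : N → ℂ)).comap f := comap_mono hNT
  obtain ⟨η, hη⟩ := block_nonempty hM hc'
  obtain ⟨φ, hφ, hηφ⟩ := η.2.exists_under (inclusion hKU)
  obtain ⟨χ, hχ, θ', e', hχθ⟩ := hcov
  rw [show θ' = θ from e'] at hχθ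
  have hl := lnk_of_ind hM hN (inclusion hNT) f' (inclusion hKU) (f.subgroupComap N)
    (inclusion_injective _) hf' (inclusion_injective _) (fun _ => rfl)
    (fun u n e => ⟨⟨u, by rw [mem_comap, ← f'a, e]; exact n.2⟩, rfl⟩)
    (by rw [inclusion_range]; infer_instance) θ.2
    (fun t n n' e => by
      rw [← t.2 n]
      exact congrArg _ (Subtype.ext (congrArg (fun x => (x.1 : G)) e)))
    hB' hχ hχθ hc' hci hη hφ hηφ
  have hst := stab hM.1 hN (hD.isPGroup.map _) θ.2 (map_subtype_le D) f hf hr hφ hl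
  have hK : ¬ p ∣ Nat.card (N.comap f) := fun k => hN (k.trans (card_dvd_of_injective
    (f.subgroupComap N) fun a b e => Subtype.ext (hf (congrArg Subtype.val e))))
  have h1 := isPBlock_singleton_of_not_dvd hM hK ⟨φ, hφ⟩
  have h2 : ∀ x, x ∈ (inertia N (θ : N → ℂ)).comap f ↔
      cjN (N.comap f) x (eB M {⟨φ, hφ⟩}) = eB M {⟨φ, hφ⟩} := fun x => by
    rw [← hst]
    exact mem_inertia_iff_cjN_eB hM hK ⟨φ, hφ⟩ x
  have h3 : OverLE hKU c' {⟨φ, hφ⟩} := ⟨η, hη, _, rfl, hηφ⟩
  obtain ⟨c₁, h4⟩ := fr_exists hM hKU h1 h2 hc' h3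
  obtain ⟨-, hc₁, h5⟩ := (isInducedBlock_iff hM).1 h4
  have h6 : IndAlong f (lamB M c₁) (lamB M B) := fun z hz => by
    rw [← h5 _ (hz.res f), ← hi' z hz, ← hci _ (hz.res _)]
    rfl
  rw [eq_of_eB_eq hM hc hc₁ (first_main_inj hM.1 (natCast_F hM) hf hr (hD.isPGroup.map _)
    (isBlk_eB hM hc) (hcD.isDef hM hc) (isBlk_eB hM hc₁) hi h6)]
  exact isFR_of_stab hM hKU h1 h2 h3 h4

end CL.DG
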