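import Cfsg.Agent.BLK.DG.Pf
import Cfsg.Agent.BLK.DG.Ind
import Cfsg.Agent.BLK.DG.InvH
import Cfsg.Agent.BLK.DG.Red

/-! Fong induction for the perfect bijection with the Brauer correspondent. -/

set_option autoImplicit false

open Cfsg Subgroup CL.Char CL.Blk
open scoped Classical CL.MSS

namespace CL.DG

universe u

variable {p : ℕ} {M : Ideal AlgInt}

theorem mot_inv (hM : IsPModular p M) {G : Type u} [Group G] [Fintype G]
    [Fintype (pPrimeCore p G)] (hG : IsPSolvable p G) (θ : IrrCharacter (pPrimeCore p G))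
    (hθ : inertia _ (θ : pPrimeCore p G → ℂ) = ⊤) :
    Mot p M G (overSet _ (θ : pPrimeCore p G → ℂ)) := by
  have := Fact.mk hM.1
  intro P hP hab c _ hc
  have hcon := IsPSolvable.isPConstrained hG
  have hN := not_dvd_card_pPrimeCore p G
  obtain ⟨S, rfl⟩ := (isDefectGroup_overSet_iff hM hcon rfl hθ).1 hP
  obtain ⟨hNH, hK⟩ := frat hG S hab
  obtain ⟨hcb, hB, hi⟩ := (isInducedBlock_iff hM).1 hc
  obtain ⟨η, hη⟩ := block_nonempty hM hcb
  obtain ⟨χ, hχ⟩ := block_nonempty hM hB
  have inst := Fintype.ofFinite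
    ((pPrimeCore p G).subgroupOf (normalizer ((S : Subgroup G) : Set G)))
  obtain ⟨φ, hφ, hηφ⟩ := η.2.exists_under_res
    ((pPrimeCore p G).subgroupOf (normalizer ((S : Subgroup G) : Set G)))
  let j : (pPrimeCore p G).subgroupOf (normalizer ((S : Subgroup G) : Set G)) →* pPrimeCore p G :=
    (normalizer ((S : Subgroup G) : Set G)).subtype.subgroupComap _
  have hl : Lnk p (fun k => (θ : pPrimeCore p G → ℂ) (j k)) φ :=
    lnk_of_ind hM hN (pPrimeCore p G).subtype (normalizer ((S : Subgroup G) : Set G)).subtype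
      (Subgroup.subtype _) j (subtype_injective _) (subtype_injective _) (subtype_injective _)
      (fun _ => rfl) (fun u n h => ⟨⟨u, by
        rw [mem_subgroupOf]; change (normalizer _).subtype u ∈ _; rw [h]; exact n.2⟩, rfl⟩)
      (by rw [range_subtype]; infer_instance) θ.2
      (fun t n n' h => by
        rw [← inertia_eq_top_iff.1 hθ t n]
        exact congrArg _ (Subtype.ext h))
      hB hχ (mem_overSet.1 hχ) hcb hi hη hφ hηφ
  have hinv : inertia ((pPrimeCore p G).subgroupOf (normalizer ((S : Subgroup G) : Set G))) φ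
      = ⊤ := by
    have := @stab p hM.1 G _ _ _ _ _ _ _ _ hN S.2 _ θ.2 (hθ ▸ le_top)
      (normalizer ((S : Subgroup G) : Set G)).subtype
      (subtype_injective _) (range_subtype _) inst _ hφ hl
    rw [hθ, comap_top] at this
    exact this
  have hce : c = overSet _ φ := block_eq_of_mem hM hcb
    (isPBlock_overSet hM (IsPSolvable.isPConstrained (IsPSolvable.subgroup hG _)) hK
      (θ := ⟨φ, hφ⟩) hinv) hη (mem_overSet.2 hηφ)
  obtain ⟨Γ, _, _, L, _, _, π, ρ, θ', Z, μ, fc⟩ := exists_isFC _ θ.2 hθ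
  have := Fintype.ofFinite Z
  have hZ := fc.not_dvd_card hM.1 θ.2 hN
  obtain ⟨Γ₂, _, _, π₂, ρ₂, ψ, h₂⟩ := exists_side hM θ.2 hN fc S.2 hab hNH hφ hl
  rw [hce]
  exact pi_of_side hM fc.central hZ ⟨fc.surjπ, fc.surjρ, fc.ker_central, fc.card_kerπ ▸ hZ,
    fc.card_kerρ ▸ hN, fc.irr.isCharacter, fc.exists_equiv θ.2 hθ⟩ h₂

theorem mot_red (hM : IsPModular p M) {G : Type u} [Group G] [Fintype G] {N : Subgroup G}
    [N.Normal] [Fintype N] (hN : ¬ p ∣ Nat.card N) (θ : IrrCharacter N)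
    {B' : Set (IrrCharacter (inertia N (θ : N → ℂ)))} {B : Set (IrrCharacter G)}
    (hcov : OverLE (le_inertia θ.2.isClassFunction) B' {θ}) (hfr : IsFR p M _ B' B)
    (ih : Mot p M _ B') : Mot p M G B := by
  intro P hP hab c hcD hc
  obtain ⟨D, hD, x, hx⟩ := hfr.exists_cj hM hP
  obtain ⟨hcb, hB, hi⟩ := (isInducedBlock_iff hM).1 hc
  obtain ⟨hB', -, -⟩ := (isInducedBlock_iff hM).1 hfr.ind
  have := Fintype.ofFinite (normalizer (P : Set G))
  let f : normalizer (P : Set G) →* G :=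
    (MulAut.conj x⁻¹).toMonoidHom.comp (normalizer (P : Set G)).subtype
  have hf : Function.Injective f := (MulAut.conj x⁻¹).injective.comp (subtype_injective _)
  have hx' : x⁻¹ •ᶜ P = D.map (inertia N (θ : N → ℂ)).subtype := by
    rw [← hx, ← MSS.cj_mul, inv_mul_cancel, MSS.cj_one]
  have hr : f.range = normalizer (D.map (inertia N (θ : N → ℂ)).subtype : Set G) := by
    rw [← hx', ← MSS.cj_normalizer, MonoidHom.range_comp, range_subtype]
  have hco : (D.map (inertia N (θ : N → ℂ)).subtype).comap f =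
      P.subgroupOf (normalizer (P : Set G)) := by
    rw [← hx', ← comap_comap, comap_map_eq_self_of_injective (MulAut.conj x⁻¹).injective]
    rfl
  have hi' : IndAlong f (lamB M c) (lamB M B) :=
    (IndAlong.of_cj (f₂ := f) (φ := MonoidHom.id _) (x := x⁻¹) (fun _ => rfl) hi).congr_left
      fun z _ => by rw [LinearMap.comp_apply, res_id]
  obtain ⟨f', c', hf', hr', hc', hD', hi'', hfr'⟩ :=
    red_side hM hN θ hcov hfr hD f hf hr hcb (hco ▸ hcD) hi'
  refine PI.ind hM hfr hfr' (Mot.hom hM hB' ih hD (fun a ha b hb => Subtype.ext ?_) f' hf' hr'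
    hc' hD' hi'')
  have h1 := hab _ (hx ▸ MSS.conj_mem_cj (g := x) (mem_map_of_mem _ ha)) _
    (hx ▸ MSS.conj_mem_cj (g := x) (mem_map_of_mem _ hb))
  have h2 : x * ((a : G) * b) * x⁻¹ = x * ((b : G) * a) * x⁻¹ := by
    simpa [mul_assoc] using h1
  simpa using h2

theorem mot (hM : IsPModular p M) {G : Type u} [Group G] [Finite G] (hG : IsPSolvable p G)
    {B : Set (IrrCharacter G)} (hB : IsPBlock M B) : Mot p M G B :=
  fong_induction hM (fun G _ _ B => Mot p M G B)
    (fun G _ _ _ _ θ _ _ _ _ hcov hfr ih =>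
      have := Fact.mk hM.1
      mot_red hM (not_dvd_card_pPrimeCore p G) θ hcov hfr ih)
    (fun _ _ _ _ hG θ hθ => mot_inv hM hG θ hθ) G hG B hB

end CL.DG
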