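import Cfsg.Agent.BLK.DG.Defs

/-! Generic freeness of a permutation module off the fixed points.

PROOF. Write `t = T0 X s`, `t ^ p = 0` (as `tt_pow`; the `funLeft (s g⁻¹)` commute, order `p`).
For `g0 : Q` let `Ω0 = {ω | s g0 ω ≠ ω}` (`Q`-invariant as `Q` is commutative), `π` = the
projection `a ↦ indicator Ω0 a` (commutes with `t`).
STEP 1 (a supported on `Ω0`, `t a = 0`). Pick a transversal `Θ` of the `⟨s g0⟩`-orbits in `Ω0`
(each orbit has exactly `p` points `s g0 ^ i ω`, `i < p`), `θ'` = projection on `Θ`, `c =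
funLeft (s g0⁻¹)`, `θ = θ' * c` (`c = c ^ (-(p-1))`), all with entries in `F`.
`D = ∑ j in range p, t ^ j * θ * t ^ (p-1-j) + (1 - π)` commutes with `t` and `π`.
Specialise `X g0 ↦ 1`, other `X g ↦ 0` (ring hom `ev : A → F`, work with matrices
`LinearMap.toMatrix'` or define everything as `Matrix Ω Ω _`): `t ↦ c - 1 =: u`. One needs
`det (ev D) ≠ 0`. Easiest: `ev D` is surjective/injective: `D0 = ∑ u^j θ u^(p-1-j)` commutes
with `u`, and `D0 = u^(p-1) θ` on `ker u`; `u^(p-1) = ∑ c^i` in char `p` (`(c-1) * ∑ = c^p - 1 =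
(c-1)^p` in `F[X]`, cancel); for `a ∈ ker u` supported on `Ω0` (constant on orbits)
`u^(p-1) θ a = a`. An endomorphism commuting with a nilpotent `u` and injective on `ker u` is
injective. (So `θ = θ'` already works.) Hence `d = det D ≠ 0`. With `a' = adjugate D a`:
`adjugate D` commutes with `t, π` (`d ≠ 0`, `A` a domain), so `t a' = 0`, `π a' = a'` and
`d • a = D a' = t^(p-1) (θ a')`.
STEP 2. Induct on a finset `S` of `Q` with `a` supported on `⋃ g ∈ S, Ω_g`:
`a = π a + (a - π a)`, both killed by `t`; multiply the two `d`s. -/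

namespace CL.DG

open MvPolynomial

namespace Pm

open Matrix

section ring

variable {R : Type*} [Ring R]

/-- the twisted norm -/
def DD (q : ℕ) (t θ : R) : R := ∑ j ∈ Finset.range (q + 1), t ^ j * θ * t ^ (q - j)

theorem DD_comm {q : ℕ} {t : R} (θ : R) (h : t ^ (q + 1) = 0) : Commute t (DD q t θ) := by
  have e := Finset.sum_range_sub (fun j => t ^ j * θ * t ^ (q + 1 - j)) (q + 1)
  simp only [h, zero_mul, Nat.sub_zero, mul_zero, sub_zero] at e
  rw [commute_iff_eq, ← sub_eq_zero, ← e, DD, Finset.mul_sum, Finset.sum_mul, ← Finset.sum_sub_distrib]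
  refine Finset.sum_congr rfl fun j hj => ?_
  have hj := Finset.mem_range.1 hj
  rw [show q + 1 - (j + 1) = q - j by omega, show q + 1 - j = q - j + 1 by omega, pow_succ' t j, pow_succ t (q - j)]
  simp only [mul_assoc]

theorem comm_DD {q : ℕ} {t θ π : R} (h1 : Commute π t) (h2 : Commute π θ) : Commute π (DD q t θ) :=
  Commute.sum_right _ _ _ fun _ _ => ((h1.pow_right _).mul_right h2).mul_right (h1.pow_right _)

theorem map_DD {S : Type*} [Ring S] (f : R →+* S) (q : ℕ) (t θ : R) : f (DD q t θ) = DD q (f t) (f θ) := by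
  simp [DD]

end ring

variable {K Ω : Type*} [CommRing K] [Fintype Ω] [DecidableEq Ω]

theorem DD_ker (q : ℕ) {t : Matrix Ω Ω K} (θ : Matrix Ω Ω K) {a : Ω → K} (h : t *ᵥ a = 0) :
    DD q t θ *ᵥ a = (t ^ q) *ᵥ (θ *ᵥ a) := by
  rw [DD, Finset.sum_range_succ, add_mulVec, sum_mulVec, Nat.sub_self, pow_zero, mul_one, mulVec_mulVec,
    Finset.sum_eq_zero, zero_add]
  intro j hj
  have hj := Finset.mem_range.1 hj
  rw [show q - j = q - j - 1 + 1 by omega, pow_succ, ← mul_assoc, ← mulVec_mulVec, h, mulVec_zero]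

/-- a matrix commuting with a nilpotent matrix and injective on its kernel is injective -/
theorem inj {u E : Matrix Ω Ω K} {k : ℕ} (hu : u ^ k = 0) (c : Commute u E)
    (h : ∀ v, u *ᵥ v = 0 → E *ᵥ v = 0 → v = 0) {v : Ω → K} (hv : E *ᵥ v = 0) : v = 0 := by
  have key : ∀ i : ℕ, (u ^ i) *ᵥ v = 0 → v = 0 := fun i => by
    induction i with
    | zero => simp
    | succ i ih =>
      intro e
      refine ih (h _ (by rw [mulVec_mulVec, ← pow_succ', e]) ?_)
      rw [mulVec_mulVec, ← (c.pow_left i).eq, ← mulVec_mulVec, hv, mulVec_zero]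
  exact key k (by rw [hu, zero_mulVec])

theorem adj [IsDomain K] {D N : Matrix Ω Ω K} (hD : D.det ≠ 0) (c : Commute N D) {a : Ω → K} (h : N *ᵥ a = 0) :
    N *ᵥ (D.adjugate *ᵥ a) = 0 := by
  refine (smul_eq_zero.1 (?_ : D.det • (N *ᵥ (D.adjugate *ᵥ a)) = 0)).resolve_left hD
  have e : D.det • (N * D.adjugate) = D.det • (D.adjugate * N) := by
    calc D.det • (N * D.adjugate) = D.adjugate * D * (N * D.adjugate) := by rw [adjugate_mul, smul_mul, Matrix.one_mul]
      _ = D.adjugate * N * (D * D.adjugate) := by rw [mul_assoc, ← mul_assoc D, ← c.eq]; simp only [mul_assoc]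
      _ = _ := by rw [mul_adjugate, Matrix.mul_smul, Matrix.mul_one]
  rw [mulVec_mulVec, ← smul_mulVec, e, smul_mulVec, ← mulVec_mulVec, h, mulVec_zero, smul_zero]

variable {F : Type*} [Field F]

theorem geom (q : ℕ) [Fact (q + 1).Prime] [CharP F (q + 1)] (c : Matrix Ω Ω F) :
    (c - 1) ^ q = ∑ i ∈ Finset.range (q + 1), c ^ i := by
  have e : ((Polynomial.X : Polynomial F) - 1) ^ q = ∑ i ∈ Finset.range (q + 1), Polynomial.X ^ i := by
    refine mul_left_cancel₀ (Polynomial.X_sub_C_ne_zero (1 : F)) ?_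
    rw [map_one, mul_geom_sum, ← pow_succ', sub_pow_char, one_pow]
  simpa using congrArg (Polynomial.aeval c) e

/-- the indicator of the moved points -/
noncomputable def pi (F : Type*) [Field F] (τ : Equiv.Perm Ω) : Matrix Ω Ω F :=
  diagonal fun ω => if τ ω = ω then 0 else 1

/-- a transversal of the orbits -/
theorem exists_tr (q : ℕ) [Fact (q + 1).Prime] [CharP F (q + 1)] {τ : Equiv.Perm Ω} (hτ : τ ^ (q + 1) = 1) :
    ∃ θ : Ω → F, ∀ ω, ∑ i ∈ Finset.range (q + 1), θ ((τ ^ i) ω) = if τ ω = ω then 0 else 1 := by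
  let rep : Ω → Ω := fun ω => (Quotient.mk (Equiv.Perm.SameCycle.setoid τ) ω).out
  have h1 : ∀ ω, τ.SameCycle (rep ω) ω := fun ω => Quotient.mk_out (s := Equiv.Perm.SameCycle.setoid τ) ω
  have h2 : ∀ ω (i : ℕ), rep ((τ ^ i) ω) = rep ω := fun ω i => congrArg Quotient.out
    (Quotient.sound (s := Equiv.Perm.SameCycle.setoid τ) (Equiv.Perm.SameCycle.symm ⟨i, by rw [zpow_natCast]⟩))
  refine ⟨fun ω => if rep ω = ω then 1 else 0, fun ω => ?_⟩
  split_ifs with f
  · simp only [Equiv.Perm.pow_apply_eq_self_of_apply_eq_self f, Finset.sum_const, Finset.card_range, nsmul_eq_mul,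
      CharP.cast_eq_zero, zero_mul]
  · obtain ⟨i, hi, e⟩ := (h1 ω).symm.exists_pow_eq'
    have hi' : i < q + 1 := hi.trans_le (Nat.le_of_dvd (Nat.succ_pos q) (orderOf_dvd_of_pow_eq_one hτ))
    have mp : Function.minimalPeriod τ ω = q + 1 := Function.minimalPeriod_eq_prime
      (by rw [Function.IsPeriodicPt, Function.IsFixedPt, ← Equiv.Perm.coe_pow, hτ]; rfl) f
    dsimp only
    rw [Finset.sum_eq_single_of_mem i (Finset.mem_range.2 hi'), h2, if_pos e.symm]
    intro j hj ne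
    rw [h2, if_neg]
    intro e'
    refine ne (Function.iterate_injOn_Iio_minimalPeriod (f := τ) (x := ω) (mp ▸ Finset.mem_range.1 hj) (mp ▸ hi') ?_)
    simp only [← Equiv.Perm.coe_pow]
    rw [e, e']

/-- the specialised matrix is invertible -/
theorem det_ne (q : ℕ) [Fact (q + 1).Prime] [CharP F (q + 1)] {τ : Equiv.Perm Ω} (hτ : τ ^ (q + 1) = 1) :
    ∃ θ : Ω → F, (DD q (τ.permMatrix F - 1) (diagonal θ) + (1 - pi F τ)).det ≠ 0 := by
  obtain ⟨θ, hθ⟩ := exists_tr (F := F) q hτ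
  have pw : ∀ (i : ℕ) (v : Ω → F) ω, ((τ.permMatrix F ^ i) *ᵥ v) ω = v ((τ ^ i) ω) := fun i => by
    induction i with
    | zero => simp
    | succ i ih =>
      intro v ω
      rw [pow_succ, ← mulVec_mulVec, ih, permMatrix_mulVec, pow_succ' τ]
      rfl
  have c1 : τ.permMatrix F ^ (q + 1) = 1 := ext_of_mulVec_single fun i => by
    ext ω
    rw [pw, hτ, one_mulVec]
    rfl
  have nil : (τ.permMatrix F - 1) ^ (q + 1) = 0 := by
    rw [pow_succ', geom, mul_geom_sum, c1, sub_self]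
  have cp : Commute (τ.permMatrix F) (pi F τ) := by
    ext i j
    simp only [pi, mul_diagonal, diagonal_mul, PEquiv.toMatrix_apply, Equiv.toPEquiv_apply, Option.mem_def,
      Option.some.injEq]
    by_cases e : τ i = j
    · subst e; simp
    · simp [e]
  refine ⟨θ, fun d => ?_⟩
  obtain ⟨v, v0, hv⟩ := exists_mulVec_eq_zero_iff.2 d
  refine v0 (inj nil ((DD_comm _ nil).add_right ((Commute.one_right _).sub_right (cp.sub_left (Commute.one_left _))))
    (fun w hw e => ?_) hv)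
  have fx : ∀ ω, w (τ ω) = w ω := fun ω => by
    rw [sub_mulVec, one_mulVec, permMatrix_mulVec, sub_eq_zero] at hw
    exact congrFun hw ω
  have fi : ∀ (i : ℕ) ω, w ((τ ^ i) ω) = w ω := fun i ω => by
    induction i with
    | zero => rfl
    | succ i ih => rw [pow_succ', Equiv.Perm.mul_apply, fx, ih]
  rw [add_mulVec, DD_ker q _ hw, geom, sum_mulVec, sub_mulVec, one_mulVec] at e
  rw [← e]
  ext ω
  simp only [Pi.add_apply, Pi.sub_apply, Finset.sum_apply, pw, mulVec_diagonal, pi, fi, ← Finset.sum_mul, hθ]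
  ring

variable {Q : Type*} [CommGroup Q] [Fintype Q]

/-- the permutation representation -/
noncomputable def rr (F : Type*) [Field F] (s : Q →* Equiv.Perm Ω) : Q →* Matrix Ω Ω F := permMatrixHom.comp s

omit [Fintype Q] in
theorem rr_eq (s : Q →* Equiv.Perm Ω) (g : Q) : rr F s g = (s g⁻¹).permMatrix F := by
  rw [map_inv]
  rfl

omit [Fintype Q] in
theorem mp_rr [Algebra F K] (s : Q →* Equiv.Perm Ω) (g : Q) (a : Ω → K) (ω : Ω) :
    (mp K (rr F s g) *ᵥ a) ω = a (s g⁻¹ ω) := by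
  have : mp K (rr F s g) = (s g⁻¹).permMatrix K := by
    ext i j
    simp only [mp_apply, rr_eq, PEquiv.toMatrix_apply, apply_ite (algebraMap F K), map_one, map_zero]
  rw [this, permMatrix_mulVec]
  rfl

theorem T0_eq [Algebra F K] (y : Q → K) (s : Q →* Equiv.Perm Ω) (a : Ω → K) : T0 y s a = tt y (rr F s) *ᵥ a := by
  ext ω
  simp [T0_apply, tt, sum_mulVec, smul_mulVec, sub_mulVec, mp_rr]

theorem T0_pow [Algebra F K] (y : Q → K) (s : Q →* Equiv.Perm Ω) (k : ℕ) (a : Ω → K) :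
    (T0 y s ^ k) a = (tt y (rr F s) ^ k) *ᵥ a := by
  induction k with
  | zero => simp
  | succ k ih => rw [pow_succ', Module.End.mul_apply, ih, T0_eq (F := F), mulVec_mulVec, ← pow_succ']

omit [Fintype Q] in
theorem rr_pi (s : Q →* Equiv.Perm Ω) (g0 g : Q) : Commute (rr F s g) (pi F (s g0⁻¹)) := by
  ext i j
  simp only [pi, rr_eq, mul_diagonal, diagonal_mul, PEquiv.toMatrix_apply, Equiv.toPEquiv_apply,
    Option.mem_def, Option.some.injEq]
  by_cases e : s g⁻¹ i = j
  · subst e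
    have : s g0⁻¹ (s g⁻¹ i) = s g⁻¹ (s g0⁻¹ i) := by
      rw [← Equiv.Perm.mul_apply, ← map_mul, mul_comm, map_mul, Equiv.Perm.mul_apply]
    simp only [this, EmbeddingLike.apply_eq_iff_eq, if_true, mul_one, one_mul]
  · simp only [e, if_false, mul_zero, zero_mul]

theorem step (q : ℕ) [Fact (q + 1).Prime] [CharP F (q + 1)] (s : Q →* Equiv.Perm Ω) (hs : ∀ g, s g ^ (q + 1) = 1)
    (g0 : Q) {a : Ω → PA F Q} (h0 : tt (X : Q → PA F Q) (rr F s) *ᵥ a = 0)
    (h1 : (1 - mp (PA F Q) (pi F (s g0⁻¹))) *ᵥ a = 0) :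
    ∃ d : PA F Q, d ≠ 0 ∧ ∃ b, d • a = (tt (X : Q → PA F Q) (rr F s) ^ q) *ᵥ b := by
  classical
  obtain ⟨θ, hθ⟩ := det_ne (F := F) q (hs g0⁻¹)
  have nil := tt_pow (q + 1) (X : Q → PA F Q) (r := rr F s) fun g => by rw [← map_pow, rr, MonoidHom.comp_apply, map_pow, hs, map_one]
  have c1 := commute_tt (X : Q → PA F Q) (rr_pi (F := F) s g0)
  have c2 : Commute (mp (PA F Q) (pi F (s g0⁻¹))) (mp (PA F Q) (diagonal θ)) := (commute_diagonal _ _).map _
  let ev : PA F Q →+* F := MvPolynomial.eval (Pi.single g0 1)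
  have em : ∀ M : Matrix Ω Ω F, ev.mapMatrix (mp (PA F Q) M) = M := fun M => by
    ext i j
    simp [mp_apply, ev]
  have et : ev.mapMatrix (tt (X : Q → PA F Q) (rr F s)) = (s g0⁻¹).permMatrix F - 1 := by
    have : ∀ g, ev.mapMatrix ((X g : PA F Q) • mp (PA F Q) (rr F s g - 1)) = (Pi.single g0 (1 : F) : Q → F) g • (rr F s g - 1) :=
      fun g => by
        ext1 i j
        simp only [mp_apply, ev, RingHom.mapMatrix_apply, Matrix.map_apply, Matrix.smul_apply, smul_eq_mul, map_mul, eval_X,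
          algebraMap_eq, eval_C]
    rw [tt, map_sum, Finset.sum_congr rfl fun g _ => this g, Finset.sum_eq_single g0 (fun g _ n => by simp [n]) (by simp)]
    rw [Pi.single_eq_same, one_smul, rr_eq]
  obtain ⟨D, hD⟩ : ∃ D, D = DD q (tt (X : Q → PA F Q) (rr F s)) (mp (PA F Q) (diagonal θ)) +
    (1 - mp (PA F Q) (pi F (s g0⁻¹))) := ⟨_, rfl⟩
  have d0 : D.det ≠ 0 := fun e => hθ (by
    have := ev.map_det D
    rw [e, map_zero, hD, map_add, map_sub, map_one, map_DD, em, em, et] at this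
    exact this.symm)
  have k1 := adj d0 (hD ▸ (DD_comm _ nil).add_right ((Commute.one_right _).sub_right c1)) h0
  have k2 := adj d0 (hD ▸ (Commute.one_left _).sub_left ((comm_DD c1.symm c2).add_right
    ((Commute.one_right _).sub_right (Commute.refl _)))) h1
  refine ⟨D.det, d0, mp (PA F Q) (diagonal θ) *ᵥ (D.adjugate *ᵥ a), ?_⟩
  rw [← DD_ker q _ k1, ← add_zero (_ *ᵥ _), ← k2, ← add_mulVec, ← hD, mulVec_mulVec, mul_adjugate, smul_mulVec, one_mulVec]

end Pm

theorem perm {F Q Ω : Type*} [Field F] [CommGroup Q] [Fintype Q] [Fintype Ω] (p : ℕ)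
    [Fact p.Prime] [CharP F p] (s : Q →* Equiv.Perm Ω) (hs : ∀ g, s g ^ p = 1)
    (a : Ω → PA F Q) (h0 : T0 (X : Q → PA F Q) s a = 0)
    (hfix : ∀ ω, (∀ g, s g ω = ω) → a ω = 0) :
    ∃ d : PA F Q, d ≠ 0 ∧ ∃ b, d • a = (T0 (X : Q → PA F Q) s ^ (p - 1)) b := by
  classical
  obtain ⟨q, rfl⟩ : ∃ q, p = q + 1 := ⟨p - 1, (Nat.succ_pred_eq_of_pos (Nat.Prime.pos Fact.out)).symm⟩
  simp only [Nat.add_sub_cancel, Pm.T0_pow (F := F), Pm.T0_eq (F := F)] at h0 ⊢
  have key : ∀ S : Finset Q, ∀ a : Ω → PA F Q, (tt (X : Q → PA F Q) (Pm.rr F s)).mulVec a = 0 →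
      (∀ ω, (∀ g ∈ S, s g⁻¹ ω = ω) → a ω = 0) →
      ∃ d : PA F Q, d ≠ 0 ∧ ∃ b, d • a = (tt (X : Q → PA F Q) (Pm.rr F s) ^ q).mulVec b := fun S => by
    induction S using Finset.induction_on with
    | empty => exact fun a _ h => ⟨1, one_ne_zero, 0, by ext1 ω; simp [h ω]⟩
    | insert g S _ ih =>
      intro a h0 h
      have c1 := commute_tt (X : Q → PA F Q) (Pm.rr_pi (F := F) s g)
      have pv : ∀ (b : Ω → PA F Q) ω, (mp (PA F Q) (Pm.pi F (s g⁻¹))).mulVec b ω = if s g⁻¹ ω = ω then 0 else b ω :=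
        fun b ω => by
          have : mp (PA F Q) (Pm.pi F (s g⁻¹)) = Matrix.diagonal fun ω => if s g⁻¹ ω = ω then 0 else 1 := by
            ext1 i j
            simp only [mp_apply, Pm.pi, Matrix.diagonal_apply, apply_ite (algebraMap F (PA F Q)), map_zero, map_one]
          rw [this, Matrix.mulVec_diagonal]
          split_ifs <;> simp
      have t1 : (tt (X : Q → PA F Q) (Pm.rr F s)).mulVec ((mp (PA F Q) (Pm.pi F (s g⁻¹))).mulVec a) = 0 := by
        rw [Matrix.mulVec_mulVec, c1.eq, ← Matrix.mulVec_mulVec, h0, Matrix.mulVec_zero]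
      obtain ⟨d, d0, b, e⟩ := Pm.step q s hs g t1 (by
        ext1 ω
        rw [Matrix.sub_mulVec, Matrix.one_mulVec, Pi.sub_apply, pv (Matrix.mulVec _ a), pv a]
        split_ifs <;> simp)
      obtain ⟨d', d0', b', e'⟩ := ih (a - (mp (PA F Q) (Pm.pi F (s g⁻¹))).mulVec a)
        (by rw [Matrix.mulVec_sub, h0, t1, sub_zero]) fun ω hω => by
          rw [Pi.sub_apply, pv]
          split_ifs with f
          · rw [sub_zero, h ω (Finset.forall_mem_insert _ _ _ |>.2 ⟨f, hω⟩)]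
          · exact sub_self _
      refine ⟨d * d', mul_ne_zero d0 d0', d' • b + d • b', ?_⟩
      rw [Matrix.mulVec_add, Matrix.mulVec_smul, Matrix.mulVec_smul, ← e, ← e', smul_smul, smul_smul, mul_comm d' d,
        ← smul_add, add_sub_cancel]
  exact key Finset.univ a h0 fun ω h => hfix ω fun g => by simpa using h g⁻¹ (Finset.mem_univ _)

end CL.DG
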