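import Cfsg.Agent.BLK.DG.CDefs
import Cfsg.Agent.SOLV.Basic

/-! Two covers over the same group give a perfect bijection.

PROOF. `b = overSet Z μ` is a union of blocks (`isBlockUnion_overSet`, `Z` central so normal and
`μ` invariant). `s x y = ∑ β ∈ b, β x * β y` satisfies `CInt M (s · y)` (sum `cInt_block` over
the blocks in `b`; or directly `s x y = |Z|⁻¹ ∑_z conj (μ z) ∑_{all β} β (z x) β y` and column
orthogonality, `C(z x) = C(x)`), and `s x y = 0` unless `p ∣ o(x) ↔ p ∣ o(y)` (block/column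
orthogonality; see BLK/BlockOrth). `I = e₁.symm ∘ e₂` on `c` (anything off `c`),
`pker (π₁ γ₁) (π₂ γ₂) = θ₁ γ₁ * θ₂ γ₂ * s (ρ₁ γ₁) (ρ₂ γ₂)`, character values lie in `V M`.
`|C_L(ρ γ)| / |C_G(π γ)| ∈ V M`: `v_p |C_G(π γ)| = v_p |C_Γ γ|` (the commutator map
`π⁻¹ C_G(π γ) → ker π` is a hom with kernel `C_Γ γ`) and `v_p |C_Γ γ| ≤ v_p |C_L(ρ γ)|` (image
under `ρ`, kernel `p'`). Orders: `IsFC.dvd_orderOf_iff_of_ker`. -/

set_option autoImplicit false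

open Cfsg Subgroup CL.Char CL.Blk
open scoped Classical

namespace CL.DG

namespace Pf

variable {G Γ L : Type*} [Group G] [Group Γ] [Group L] {p : ℕ} {M : Ideal AlgInt}

theorem cInt_int [Finite G] {B : Set (IrrCharacter G)} (hB : ∀ g, blockCoeff B g ∈ V M)
    (y : G) : CInt M fun x => ∑ χ with χ ∈ B, χ.1 x * χ.1 y := fun x => by
  have := Fintype.ofFinite G
  have h1 := sum_blockCoeff_conj B y x⁻¹
  rw [inv_inv, sum_eq_sum_leftCosets (centralizer ({x} : Set G)), Finset.sum_congr rfl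
    (g := fun q => (Nat.card (centralizer ({x} : Set G)) : ℂ) *
      blockCoeff B (q.out * x⁻¹ * q.out⁻¹ * y⁻¹)) fun q _ => by
      rw [Finset.sum_congr rfl (g := fun _ => blockCoeff B (q.out * x⁻¹ * q.out⁻¹ * y⁻¹))
        fun h _ => by
          have := mem_centralizer_singleton_iff.1 h.2
          congr 2
          rw [mul_inv_rev, mul_assoc q.out, (Commute.inv_right this).eq]
          group, Finset.sum_const, Finset.card_univ, nsmul_eq_mul, Nat.card_eq_fintype_card],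
    ← Finset.mul_sum] at h1
  beta_reduce
  rw [Finset.sum_congr rfl fun χ _ => mul_comm (χ.1 x) (χ.1 y), ← h1,
    mul_div_cancel_left₀ _ (card_ne_zero _)]
  exact sum_mem fun q _ => hB _

theorem dvd_down (ρ : Γ →* L) (γ : Γ) : Nat.card (centralizer ({γ} : Set Γ)) ∣
    Nat.card (centralizer ({ρ γ} : Set L)) * Nat.card ρ.ker := by
  rw [← CL.card_map_mul_card_inf_ker _ ρ]
  refine mul_dvd_mul (card_dvd_of_le ?_) (card_dvd_of_le inf_le_right)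
  rintro _ ⟨x, hx, rfl⟩
  exact mem_centralizer_singleton_iff.2 (Commute.map (mem_centralizer_singleton_iff.1 hx) ρ).eq

theorem dvd_up {π : Γ →* G} (hs : Function.Surjective π) (hc : π.ker ≤ center Γ) (γ : Γ) :
    Nat.card (centralizer ({π γ} : Set G)) ∣ Nat.card (centralizer ({γ} : Set Γ)) * Nat.card π.ker := by
  obtain ⟨D, hD⟩ : ∃ D, D = (centralizer ({π γ} : Set G)).comap π := ⟨_, rfl⟩
  have m : ∀ d : D, (d : Γ) * γ * (d : Γ)⁻¹ * γ⁻¹ ∈ π.ker := fun d => by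
    have : (d : Γ) ∈ (centralizer ({π γ} : Set G)).comap π := hD ▸ d.2
    rw [MonoidHom.mem_ker, map_mul, map_mul, map_mul, map_inv, map_inv, mem_centralizer_singleton_iff.1 this]
    group
  let f : D →* Γ := MonoidHom.mk' (fun d => (d : Γ) * γ * (d : Γ)⁻¹ * γ⁻¹) fun d e => by
    have := mem_center_iff.1 (hc (m e)) (γ * (d : Γ)⁻¹ * γ⁻¹)
    calc _ = d * ((e : Γ) * γ * (e : Γ)⁻¹ * γ⁻¹ * (γ * (d : Γ)⁻¹ * γ⁻¹)) := by push_cast; group
      _ = d * ((e : Γ) * γ * (e : Γ)⁻¹ * γ⁻¹ * γ) * ((d : Γ)⁻¹ * γ⁻¹) := by group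
      _ = d * (γ * ((e : Γ) * γ * (e : Γ)⁻¹ * γ⁻¹)) * ((d : Γ)⁻¹ * γ⁻¹) := by rw [mem_center_iff.1 (hc (m e)) γ]
      _ = d * γ * (((e : Γ) * γ * (e : Γ)⁻¹ * γ⁻¹) * ((d : Γ)⁻¹ * γ⁻¹)) := by group
      _ = _ := by rw [← mem_center_iff.1 (hc (m e))]; group
  have h1 : Nat.card (centralizer ({π γ} : Set G)) ∣ Nat.card D := by
    rw [← map_comap_eq_self_of_surjective hs (centralizer _), ← hD]
    exact card_map_dvd _ _
  refine h1.trans ?_
  rw [← card_top, ← CL.card_map_mul_card_inf_ker _ f, mul_comm, top_inf_eq, ← card_map_of_injective D.subtype_injective]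
  refine mul_dvd_mul (card_dvd_of_le ?_) (card_dvd_of_le ?_)
  · rintro _ ⟨d, hd, rfl⟩
    exact mem_centralizer_singleton_iff.2 (mul_inv_eq_iff_eq_mul.1 (mul_inv_eq_one.1 hd))
  · rintro _ ⟨d, -, rfl⟩
    exact m d

theorem quot [Finite G] [Finite Γ] [Finite L] (hM : IsPModular p M) {π : Γ →* G} {ρ : Γ →* L} {θ : Γ → ℂ}
    {B : Set (IrrCharacter G)} {b : Set (IrrCharacter L)} (h : Side p π ρ θ B b) (γ : Γ) {s : ℂ}
    (hs : s / (Nat.card (centralizer ({ρ γ} : Set L)) : ℂ) ∈ V M) :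
    s / (Nat.card (centralizer ({π γ} : Set G)) : ℂ) ∈ V M := by
  have d := (dvd_up h.surjπ h.cen γ).trans (mul_dvd_mul_right (dvd_down ρ γ) _)
  have l := (Nat.factorization_le_iff_dvd Nat.card_pos.ne'
    (mul_ne_zero (mul_ne_zero Nat.card_pos.ne' Nat.card_pos.ne') Nat.card_pos.ne')).2 d p
  rw [Nat.factorization_mul (mul_ne_zero Nat.card_pos.ne' Nat.card_pos.ne') Nat.card_pos.ne',
    Nat.factorization_mul Nat.card_pos.ne' Nat.card_pos.ne', Finsupp.add_apply, Finsupp.add_apply,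
    Nat.factorization_eq_zero_of_not_dvd h.kπ, Nat.factorization_eq_zero_of_not_dvd h.kρ] at l
  have := mul_mem hs ((natCast_div_mem_V_iff hM Nat.card_pos.ne' Nat.card_pos.ne').2 l)
  rwa [div_mul_div_cancel₀ (card_ne_zero _)] at this

end Pf

theorem pi_of_side {G H L Γ₁ Γ₂ : Type*} [Group G] [Finite G] [Group H] [Finite H] [Group L]
    [Finite L] [Group Γ₁] [Finite Γ₁] [Group Γ₂] [Finite Γ₂] {p : ℕ} {M : Ideal AlgInt}
    (hM : IsPModular p M) {Z : Subgroup L} [Fintype Z] {μ : Z →* ℂˣ} (hZ : Z ≤ center L)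
    (hpZ : ¬ p ∣ Nat.card Z) {π₁ : Γ₁ →* G} {ρ₁ : Γ₁ →* L} {θ₁ : Γ₁ → ℂ}
    {B : Set (IrrCharacter G)} {π₂ : Γ₂ →* H} {ρ₂ : Γ₂ →* L} {θ₂ : Γ₂ → ℂ}
    {c : Set (IrrCharacter H)} (h₁ : Side p π₁ ρ₁ θ₁ B (overSet Z fun z => (μ z : ℂ)))
    (h₂ : Side p π₂ ρ₂ θ₂ c (overSet Z fun z => (μ z : ℂ))) : PI p M c B := by
  have : Z.Normal := ⟨fun n hn g => by rwa [mem_center_iff.1 (hZ hn) g, mul_inv_cancel_right]⟩
  have hb : ∀ g, blockCoeff (overSet Z fun z => (μ z : ℂ)) g ∈ V M :=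
    (isBlockUnion_overSet hM hpZ (θ := irrOfHom μ) (eq_top_iff.2 fun g _ =>
      centralizer_le_inertia _ fun _ hz => (mem_center_iff.1 (hZ hz) g).symm)).isInt hM
  generalize (overSet Z fun z => (μ z : ℂ)) = b at h₁ h₂ hb
  obtain ⟨e₁, k₁⟩ := h₁.eqv
  obtain ⟨e₂, k₂⟩ := h₂.eqv
  obtain ⟨I, hI⟩ : ∃ I : IrrCharacter H → IrrCharacter G, ∀ η : c, I η = (e₁.symm (e₂ η)).1 :=
    ⟨fun η => if h : η ∈ c then (e₁.symm (e₂ ⟨η, h⟩)).1 else ⟨_, isIrrCharacter_one⟩, fun η => dif_pos η.2⟩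
  have key : ∀ γ₁ γ₂, pker c I (π₁ γ₁) (π₂ γ₂) =
      θ₁ γ₁ * θ₂ γ₂ * ∑ β with β ∈ b, β.1 (ρ₁ γ₁) * β.1 (ρ₂ γ₂) := fun γ₁ γ₂ => by
    rw [pker, Finset.sum_subtype (p := fun η => η ∈ c) _ (by simp), Finset.sum_subtype (p := fun β => β ∈ b) _ (by simp),
      Finset.mul_sum]
    refine Fintype.sum_equiv e₂ _ _ fun η => ?_
    rw [hI, k₁, k₂, Equiv.apply_symm_apply]
    ring
  have v₁ := fun γ => mem_V_of_isIntegral (M := M) (h₁.chr.isIntegral γ)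
  have v₂ := fun γ => mem_V_of_isIntegral (M := M) (h₂.chr.isIntegral γ)
  refine ⟨I, ⟨fun η h => ?_, fun η h η' h' e => ?_, fun χ h => ?_⟩, fun y x => ?_, fun x y => ?_, fun x y n => ?_⟩
  · rw [hI ⟨η, h⟩]
    exact Subtype.prop _
  · rw [hI ⟨η, h⟩, hI ⟨η', h'⟩] at e
    exact congrArg Subtype.val (e₂.injective (e₁.symm.injective (Subtype.ext e)))
  · exact ⟨_, (e₂.symm (e₁ ⟨χ, h⟩)).2, by rw [hI, Equiv.apply_symm_apply, Equiv.symm_apply_apply]⟩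
  · obtain ⟨γ₁, rfl⟩ := h₁.surjπ x
    obtain ⟨γ₂, rfl⟩ := h₂.surjπ y
    beta_reduce
    rw [key, mul_div_assoc]
    exact mul_mem (mul_mem (v₁ _) (v₂ _)) (Pf.quot hM h₁ _ (Pf.cInt_int hb _ _))
  · obtain ⟨γ₁, rfl⟩ := h₁.surjπ x
    obtain ⟨γ₂, rfl⟩ := h₂.surjπ y
    beta_reduce
    rw [key, mul_div_assoc, Finset.sum_congr rfl fun β _ => mul_comm _ _]
    exact mul_mem (mul_mem (v₁ _) (v₂ _)) (Pf.quot hM h₂ _ (Pf.cInt_int hb _ _))
  · obtain ⟨γ₁, rfl⟩ := h₁.surjπ x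
    obtain ⟨γ₂, rfl⟩ := h₂.surjπ y
    rw [IsFC.dvd_orderOf_iff_of_ker hM.1 h₁.kπ, IsFC.dvd_orderOf_iff_of_ker hM.1 h₂.kπ,
      ← IsFC.dvd_orderOf_iff_of_ker hM.1 h₁.kρ, ← IsFC.dvd_orderOf_iff_of_ker hM.1 h₂.kρ] at n
    have o : ∀ {x y : L}, ¬ p ∣ orderOf x → p ∣ orderOf y → ∑ β with β ∈ b, β.1 x * β.1 y = 0 := fun {x y} hx hy => by
      rw [← weak_orth_of_int hM hb hx (y := y⁻¹) (by rwa [orderOf_inv])]
      exact Finset.sum_congr rfl fun β _ => by rw [← β.2.apply_inv, inv_inv]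
    rw [key]
    by_cases k : p ∣ orderOf (ρ₁ γ₁)
    · rw [Finset.sum_congr rfl fun β _ => mul_comm _ _, o (fun k' => n ⟨fun _ => k', fun _ => k⟩) k, mul_zero]
    · rw [o k (by_contra fun k' => n ⟨fun h => (k h).elim, fun h => (k' h).elim⟩), mul_zero]

end CL.DG
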