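import Cfsg.Agent.BLK.DG.Core
import Cfsg.Agent.BLK.DG.FIred
import Cfsg.Agent.S4444

/-! One step of the Dade-Glauberman extension theorem: `p`-th powers of `P` act trivially.

PROOF. (1) `φ` is `H`-invariant: S4444 (i) for `(N, P, C)`; for `h ∈ H`, `c ↦ φ (h c h⁻¹)` is
irreducible and has the same multiplicity in `χ|C` (reindex, `χ` class function on `A`).
(2) `C' = C.subgroupOf H` normal in `H`; `exists_central_ext_pow C' φ` gives
`Δ, π : Δ →* H, i : C' →* Δ, θ', lam`. `exists_matrixRep_V` for `χ` on `A` (`R0`) and `θ'` on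
`Δ` (`ω0`); reduce with `rd M`. `F = F M` (`charP_F`), `Q = P` (`letI : CommGroup P`),
`α = N.normalizerMonoidHom ∘ inclusion`, `R, r, ρ` = `rd R0` along `N, P, π` into `A`,
`j : C' →* N`, `W = rd ω0 ∘ i`, `s` = conjugation of `π δ` on `P`.
`Data`: `fi_red` twice; `rp`: `rd R0 (g^p)` commutes with `R`, is a scalar `a` (`FI.scalar`)
with `a ^ p ^ k = 1`, so `a = 1` (if the index type is empty use `Subsingleton`); `link`:
the sum is `red (|C| * m)` (`trace_rd`, `φ c⁻¹ = conj (φ c)`).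
(3) `core` gives `ν`. For `z ∈ π.ker`: `rd ω0 z = red (lam z) • 1` (FI for `W` applied to the
difference `X`: `tr (W c⁻¹ * X) = 0`), so `ν z * red (lam z) = 1` (`c = 1`); `ν (i c) = 1`
(`a = 1`). `teich` gives `ν'`; `eq_of_red_eq_of_pow_eq_one` gives `ν' z * lam z = 1`
(`charDegree φ * |C|` is prime to `p`) and `ν' (i c) = 1`. `ν' * θ'` is irreducible, trivial on
`π.ker`, `exists_deflate` gives a character of `H`; extend by zero to `G`. -/

set_option autoImplicit false

open Cfsg Subgroup CL.Char CL.Blk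
open scoped Classical

namespace CL.DG

namespace Step

theorem inv {p : ℕ} (hp : p.Prime) {G : Type*} [Group G] [Finite G]
    {A N P C : Subgroup G} [Fintype C] (hNA : N ≤ A) (hAN : A ≤ normalizer (N : Set G))
    (hN : ¬ p ∣ Nat.card N) (hP : IsPGroup p P) (hPA : P ≤ A)
    (hC : C = N ⊓ centralizer (P : Set G)) {χ φ : G → ℂ}
    (hχ : IsCharacter A fun a => χ a) (hχN : IsIrrCharacter N fun n => χ n)
    (hφ : IsIrrCharacter C fun c => φ c) (hl : Lnk p (fun c : C => χ c) fun c => φ c)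
    {h : G} (hA : h ∈ A) (hh : h ∈ normalizer (C : Set G)) {c : G} (hc : c ∈ C) :
    φ (h * c * h⁻¹) = φ c := by
  haveI := Fact.mk hp
  letI := Fintype.ofFinite G
  letI := Fintype.ofFinite N
  have hCN : C ≤ N := hC ▸ inf_le_left
  have hcl : ∀ a ∈ A, ∀ b ∈ A, χ (a * b * a⁻¹) = χ b := fun a ha b hb =>
    hχ.isClassFunction ⟨b, hb⟩ ⟨a, ha⟩
  obtain ⟨k, hk⟩ := hP.exists_card_eq
  obtain ⟨β, -, hβ⟩ := (Cfsg.Agent.S4444.result N P
    (fun s hs g hg => (mem_normalizer_iff.1 (hAN (hPA hs)) g).1 hg)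
    (by rw [hk]; exact ((hp.coprime_iff_not_dvd.2 hN).symm).pow_right k) p hp hP C hC hCN).1
    ⟨fun n => χ n, hχN⟩ (fun s hs g g' e => by
      change χ g' = χ g
      rw [e, hcl s (hPA hs) g (hNA g.2)])
  let e : MulAut C := C.normalizerMonoidHom ⟨h, hh⟩
  have h1 := hβ ⟨fun c => φ c, hφ⟩ hl
  have h2 := hβ ⟨fun c => φ (e c), hφ.comp_mulEquiv e⟩ (by
    obtain ⟨m, hm, hpm⟩ := hl
    refine ⟨m, ?_, hpm⟩
    rw [← hm, ← classInner_comp_equiv e.toEquiv (fun c : C => χ c) fun c => φ c]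
    congr 1
    funext c
    exact (hcl h hA c (hNA (hCN c.2))).symm)
  exact congrFun (congrArg Subtype.val (h2.trans h1.symm)) ⟨c, hc⟩

theorem pow_eq_one {F N n : Type*} [Field F] [Group N] [Fintype N] [Fintype n] [DecidableEq n]
    {p : ℕ} [Fact p.Prime] [CharP F p] {R : N →* Matrix n n F} {κ : F} (h : FI R κ)
    {X : Matrix n n F} (hX : ∀ x, Commute (R x) X) {k : ℕ} (hk : X ^ p ^ k = 1) : X = 1 := by
  obtain ⟨a, rfl⟩ := h.scalar hX
  rcases isEmpty_or_nonempty n with h0 | ⟨⟨i⟩⟩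
  · exact Subsingleton.elim _ _
  rw [smul_pow, one_pow] at hk
  have h1 : a ^ p ^ k = 1 := by simpa using congrFun (congrFun hk i) i
  have h2 : (a - 1) ^ p ^ k = 0 := by rw [sub_pow_char_pow, h1, one_pow, sub_self]
  rw [sub_eq_zero.1 (pow_eq_zero_iff (pow_ne_zero k (Fact.out : p.Prime).ne_zero) |>.1 h2), one_smul]

theorem eq_smul {F N n : Type*} [Field F] [Group N] [Fintype N] [Fintype n] [DecidableEq n]
    {R : N →* Matrix n n F} {κ : F} (h : FI R κ) {X : Matrix n n F} {a : F}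
    (hX : ∀ x, (R x * X).trace = a * (R x).trace) : X = a • 1 := by
  have h1 := h.2 (X - a • 1)
  simp only [mul_sub, Matrix.trace_sub, hX, Matrix.mul_smul, mul_one, Matrix.trace_smul,
    smul_eq_mul, sub_self, zero_smul, Finset.sum_const_zero] at h1
  exact sub_eq_zero.1 ((smul_eq_zero.1 h1.symm).resolve_left h.1)

end Step

theorem step {p : ℕ} {M : Ideal AlgInt} (hM : IsPModular p M) {G : Type*} [Group G] [Finite G]
    {A N P H C : Subgroup G} [Fintype C] (hNA : N ≤ A) (hAN : A ≤ normalizer (N : Set G))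
    (hN : ¬ p ∣ Nat.card N) (hP : IsPGroup p P) (hab : ∀ x ∈ P, ∀ y ∈ P, x * y = y * x)
    (hPA : P ≤ A) (hHA : H ≤ A) (hHP : H ≤ normalizer (P : Set G))
    (hC : C = N ⊓ centralizer (P : Set G)) (hCH : C ≤ H)
    (hpow : ∀ g ∈ P, g ^ p ∈ centralizer (N : Set G)) {χ φ : G → ℂ}
    (hχ : IsCharacter A fun a => χ a) (hχN : IsIrrCharacter N fun n => χ n)
    (hφ : IsIrrCharacter C fun c => φ c) (hl : Lnk p (fun c : C => χ c) fun c => φ c) :
    ∃ ψ : G → ℂ, IsCharacter H (fun h => ψ h) ∧ ∀ c ∈ C, ψ c = φ c := by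
  have hp : p.Prime := hM.1
  haveI := Fact.mk hp
  haveI := charP_F hM
  have hCN : C ≤ N := hC ▸ inf_le_left
  have hCP : C ≤ centralizer (P : Set G) := hC ▸ inf_le_right
  have hHC : ∀ h ∈ H, ∀ c ∈ C, h * c * h⁻¹ ∈ C := fun h hh c hc => by
    rw [hC]
    refine ⟨(mem_normalizer_iff.1 (hAN (hHA hh)) c).1 (hCN hc), fun x hx => ?_⟩
    have h1 := hCP hc _ ((mem_normalizer_iff''.1 (hHP hh) x).1 hx)
    calc x * (h * c * h⁻¹) = h * (h⁻¹ * x * h * c) * h⁻¹ := by group
      _ = h * (c * (h⁻¹ * x * h)) * h⁻¹ := by rw [h1]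
      _ = _ := by group
  have hHC' : H ≤ normalizer (C : Set G) := fun h hh => mem_normalizer_fintype (hHC h hh)
  let C' := C.subgroupOf H
  haveI hn : C'.Normal := ⟨fun c hc h => hHC h h.2 c hc⟩
  letI : Fintype C' := Fintype.ofFinite _
  letI : Fintype N := Fintype.ofFinite _
  letI : Fintype P := Fintype.ofFinite _
  let eC : C' ≃* C := subgroupOfEquivOfLe hCH
  have hcard : Nat.card C' = Nat.card C := Nat.card_congr eC.toEquiv
  have hC' : ¬ p ∣ Nat.card C' := fun h => hN (h.trans (hcard ▸ card_dvd_of_le hCN))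
  have hθ : IsIrrCharacter C' fun c => φ c := hφ.comp_mulEquiv eC
  obtain ⟨Δ, _, _, π, i, θ', lam, hπ, hker, hπi, hconj, hθ', hθi, -, hlam, hlp⟩ :=
    exists_central_ext_pow C' (fun c => φ c) hθ fun g c =>
      Step.inv hp hNA hAN hN hP hPA hC hχ hχN hφ hl (hHA g.2) (hHC' g.2) c.2
  obtain ⟨n, R0, hR0⟩ := exists_matrixRep_V M hχ
  obtain ⟨m, ω0, hω0⟩ := exists_matrixRep_V M hθ'.isCharacter
  obtain ⟨κ, hκ⟩ := fi_red hM hN (R0.comp (inclusion hNA)) (by
    simp only [MonoidHom.comp_apply, hR0]; exact hχN)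
  obtain ⟨κ', hκ'⟩ := fi_red hM hC' (ω0.comp i) (by
    simp only [MonoidHom.comp_apply, hω0, hθi]; exact hθ)
  letI : CommGroup P :=
    { (inferInstance : Group P) with mul_comm := fun a b => Subtype.ext (hab _ a.2 _ b.2) }
  let α : P →* MulAut N := N.normalizerMonoidHom.comp (inclusion (hPA.trans hAN))
  have hα : ∀ (g : P) (x : N), (α g x : G) = g * x * (g : G)⁻¹ := fun g x => rfl
  let j : C' →* N := (inclusion hCN).comp eC.toMonoidHom
  have hj : ∀ c : C', (j c : G) = c := fun c => rfl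
  let R1 := rd M R0
  have hR1 : ∀ a b c d : A, (a : G) * b = c * d → R1 a * R1 b = R1 c * R1 d := fun a b c d e => by
    rw [← map_mul, ← map_mul]
    exact congrArg R1 (Subtype.ext e)
  have hD : Data p α (rd M (R0.comp (inclusion hNA))) (rd M (R0.comp (inclusion hPA))) j
      (rd M (ω0.comp i)) κ κ' :=
    { conj := fun g x => hR1 (inclusion hPA g) (inclusion hNA x) (inclusion hNA (α g x))
        (inclusion hPA g) (by simp [hα])
      rp := fun g => by
        obtain ⟨k, hk⟩ := hP g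
        refine Step.pow_eq_one hκ (fun x => ?_) (k := k) ?_
        · rw [← map_pow]
          exact hR1 (inclusion hNA x) (inclusion hPA (g ^ p)) (inclusion hPA (g ^ p))
            (inclusion hNA x) (hpow g g.2 x x.2)
        · rw [← pow_mul, mul_comm, pow_mul, ← map_pow, hk, map_one, one_pow]
      αp := fun g => by
        rw [← map_pow]
        ext x
        rw [hα, MulAut.one_apply, mul_inv_eq_iff_eq_mul]
        exact (hpow g g.2 x x.2).symm
      fiR := hκ
      fix := fun x => ⟨fun h => by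
        have hx : (x : G) ∈ C := by
          rw [hC]
          exact ⟨x.2, fun g hg => mul_inv_eq_iff_eq_mul.1
            ((hα ⟨g, hg⟩ x).symm.trans (congrArg Subtype.val (h ⟨g, hg⟩)))⟩
        exact ⟨⟨⟨x, hCH hx⟩, hx⟩, rfl⟩, by
        rintro ⟨c, rfl⟩ g
        ext
        rw [hα, mul_inv_eq_iff_eq_mul]
        exact hCP c.2 g g.2⟩
      card := by
        rw [Ne, natCast_F_eq_zero_iff hM, ← Nat.card_eq_fintype_card]
        exact hC'
      fiW := hκ'
      link := by
        obtain ⟨k, hk, hpk⟩ := hl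
        have h1 : ∀ c : C', (rd M (R0.comp (inclusion hNA)) (j c)).trace *
            (rd M (ω0.comp i) c⁻¹).trace = red M (χ c * starRingEnd ℂ (φ c)) := fun c => by
          rw [trace_rd, trace_rd, ← red_mul (SetLike.coe_mem _) (SetLike.coe_mem _),
            MonoidHom.comp_apply R0, MonoidHom.comp_apply ω0, hR0, hω0, hθi,
            hθ.isCharacter.apply_inv c]
          rfl
        have h2 : ∑ c : C', χ c * starRingEnd ℂ (φ c) = ((Nat.card C * k : ℕ) : ℂ) := by
          rw [Nat.cast_mul, ← hk, classInner, ← mul_assoc,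
            mul_inv_cancel₀ (Nat.cast_ne_zero.2 Nat.card_pos.ne'), one_mul]
          exact Equiv.sum_comp eC.toEquiv fun c => χ c * starRingEnd ℂ (φ c)
        rw [Finset.sum_congr rfl fun c _ => h1 c, ← red_sum (M := M) _
          (f := fun c : C' => χ c * starRingEnd ℂ (φ c)) fun c _ => mul_mem
          (mem_V_of_isIntegral (hχN.isCharacter.isIntegral (j c)))
          (mem_V_of_isIntegral (Blk.isIntegral_conj (hθ.isCharacter.isIntegral c))), h2, Ne,
          red_natCast_eq_zero_iff hM, hp.dvd_mul, ← hcard]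
        exact fun h => h.elim hC' hpk }
  let s : Δ →* MulAut P := P.normalizerMonoidHom.comp ((inclusion hHP).comp π)
  have hs : ∀ (δ : Δ) (g : P), (s δ g : G) = π δ * g * (π δ : G)⁻¹ := fun δ g => rfl
  obtain ⟨ν, hν⟩ := core hD (rd M (R0.comp ((inclusion hHA).comp π))) (rd M ω0) s
    (fun δ g => hR1 (inclusion hHA (π δ)) (inclusion hPA g) (inclusion hPA (s δ g))
      (inclusion hHA (π δ)) (by simp [hs]))
    (fun δ c => ⟨⟨π δ⁻¹ * c * (π δ⁻¹)⁻¹, hn.conj_mem c c.2 _⟩,
      hR1 (inclusion hNA (j c)) (inclusion hHA (π δ)) (inclusion hHA (π δ))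
        (inclusion hNA (j ⟨π δ⁻¹ * c * (π δ⁻¹)⁻¹, hn.conj_mem c c.2 _⟩)) (by simp [hj, mul_assoc]), by
      change rd M ω0 (i c) * rd M ω0 δ = rd M ω0 δ * rd M ω0 (i _)
      rw [← hconj, ← map_mul, ← map_mul]
      congr 1
      group⟩)
  obtain ⟨ν', e, hpe, he, hν'⟩ := teich hM ν
  have hd : ¬ p ∣ charDegree (fun c : C' => φ c) * Nat.card C' := fun h =>
    hC' ((hp.dvd_mul.1 h).elim (·.trans hθ.charDegree_dvd_card) id)
  have hd0 : charDegree (fun c : C' => φ c) * Nat.card C' ≠ 0 := fun h => hd (h ▸ dvd_zero p)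
  have he0 : e ≠ 0 := fun h => hpe (h ▸ dvd_zero p)
  have hz : ∀ z : π.ker, (ν' z : ℂ) * lam z = 1 := fun z => by
    have hl1 : (lam z : ℂ) ^ (charDegree (fun c : C' => φ c) * Nat.card C') = 1 := by
      rw [← Units.val_pow_eq_pow_val, hlp, Units.val_one]
    have hlV := mem_V_of_pow_eq_one (M := M) hd0 hl1
    have h1 : rd M ω0 z = red M (lam z) • 1 := Step.eq_smul hκ' fun x => by
      change (rd M ω0 (i x) * rd M ω0 z).trace = _ * (rd M ω0 (i x)).trace
      rw [← map_mul, mem_center_iff.1 (hker z.2), trace_rd, trace_rd,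
        ← red_mul hlV (SetLike.coe_mem _), hω0, hω0, hlam]
    have h2 := hν z 1 (red M (lam z)) (by
      rw [map_one, map_one]
      change R1 (inclusion hHA (π z)) = 1
      rw [z.2, map_one, map_one]) (by rw [map_one, h1]) (by
      change P.normalizerMonoidHom (inclusion hHP (π z)) = 1
      rw [z.2, map_one, map_one])
    refine eq_one_of_red_eq_one hM (m := e * (charDegree (fun c : C' => φ c) * Nat.card C'))
      (fun h => (hp.dvd_mul.1 h).elim hpe hd) ?_ ?_
    · rw [mul_pow, pow_mul, he, one_pow, one_mul, mul_comm e, pow_mul, hl1, one_pow]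
    · rw [red_mul (mem_V_of_pow_eq_one he0 (he _)) hlV, hν', h2]
  have hi : ∀ c : C', (ν' (i c) : ℂ) = 1 := fun c => by
    have h2 := hν (i c) c 1 (by
      change R1 (inclusion hHA (π (i c))) = R1 (inclusion hNA (j c))
      rw [hπi]
      rfl) (by rw [one_smul]; rfl) (by
      ext g
      rw [hs, hπi, MulAut.one_apply, mul_inv_eq_iff_eq_mul]
      exact (hCP c.2 g g.2).symm)
    exact eq_one_of_red_eq_one hM hpe (he _) (by rw [hν', ← h2, mul_one])
  obtain ⟨ψ, hψ, hψe⟩ := (hθ'.hom_mul ν').isCharacter.exists_deflate π hπ fun z hz1 => by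
    have h1 := hlam ⟨z, hz1⟩ 1
    rw [mul_one] at h1
    change (ν' z : ℂ) * θ' z = (ν' 1 : ℂ) * θ' 1
    rw [h1, ← mul_assoc, hz ⟨z, hz1⟩, map_one, Units.val_one]
  refine ⟨fun g => if h : g ∈ H then ψ ⟨g, h⟩ else 0, by simpa using hψ, fun c hc => ?_⟩
  have h1 := congrFun hψe (i ⟨⟨c, hCH hc⟩, hc⟩)
  simp only [hi, hθi, hπi, one_mul] at h1
  simp only [dif_pos (hCH hc)]
  exact h1.symm

end CL.DG
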