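import Cfsg.Agent.BLK.DG.Perm

/-! Transfer of `perm` to matrices by Fourier inversion.

PROOF. `s = (MulAut.toPerm N).comp α`. `a_P x = tr (mp (R x⁻¹) * P)`; since
`r g⁻¹ * R x⁻¹ * r g = R ((α g⁻¹ x)⁻¹)`, `a_(r g P r g⁻¹) x = a_P (α g⁻¹ x)`, so
`a_(T1 P) = T0 (a_P)`. `Φ b = ∑ x, b x • mp (R x)` satisfies `T1 (Φ b) = Φ (T0 b)` (reindex by
`α g`), and `Φ a_P = κ • P` (`FI.ext`). From `d • a_P = T0^(p-1) b` get
`(d * C κ) • P = T1^(p-1) (Φ b)`. (The inverse of a fixed point is fixed.) -/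

namespace CL.DG

open MvPolynomial

theorem tate {F Q N n : Type*} [Field F] [CommGroup Q] [Fintype Q] [Group N] [Fintype N]
    [Fintype n] [DecidableEq n] (p : ℕ) [Fact p.Prime] [CharP F p] {α : Q →* MulAut N}
    {R : N →* Matrix n n F} {r : Q →* Matrix n n F} {κ : F}
    (hr : ∀ g x, r g * R x = R (α g x) * r g) (hα : ∀ g, α g ^ p = 1) (hR : FI R κ)
    (P : Matrix n n (PA F Q)) (h0 : T1 (X : Q → PA F Q) r P = 0)
    (hfix : ∀ c, (∀ g, α g c = c) → (mp (PA F Q) (R c) * P).trace = 0) :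
    ∃ d : PA F Q, d ≠ 0 ∧ ∃ P', d • P = (T1 (X : Q → PA F Q) r ^ (p - 1)) P' := by
  classical
  let s : Q →* Equiv.Perm N := (MulAut.toPerm N).comp α
  have sa : ∀ g x, s g x = α g x := fun _ _ => rfl
  have ri : ∀ g, mp (PA F Q) (r g) * mp (PA F Q) (r g⁻¹) = 1 := fun g => by
    rw [← map_mul, ← map_mul, mul_inv_cancel, map_one, map_one]
  have hr' : ∀ g x, mp (PA F Q) (r g) * mp (PA F Q) (R x) * mp (PA F Q) (r g⁻¹) =
      mp (PA F Q) (R (α g x)) := fun g x => by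
    rw [← map_mul, hr, map_mul, mul_assoc, ri, mul_one]
  have e1 : T0 (X : Q → PA F Q) s (fun x => (mp (PA F Q) (R x⁻¹) * P).trace) = 0 := by
    funext x
    have := congrArg (fun M => (mp (PA F Q) (R x⁻¹) * M).trace) h0
    simp only [T1_apply, Finset.mul_sum, Matrix.trace_sum, Matrix.mul_smul, Matrix.trace_smul,
      mul_sub, Matrix.trace_sub, smul_eq_mul, mul_zero, Matrix.trace_zero] at this
    rw [T0_apply, Pi.zero_apply, ← this]
    refine Finset.sum_congr rfl fun g _ => ?_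
    have k := hr' g⁻¹ x⁻¹
    rw [inv_inv, map_inv (α g⁻¹)] at k
    rw [mul_sub, sa, ← k, ← mul_assoc, Matrix.trace_mul_comm _ (mp (PA F Q) (r g⁻¹))]
    simp only [mul_assoc]
  obtain ⟨d, hd, b, e⟩ := perm p s (fun g => by
    rw [← map_pow, MonoidHom.comp_apply, map_pow, hα, map_one]) _ e1
    fun x hx => hfix _ fun g => by rw [map_inv, ← sa, hx]
  let Φ : (N → PA F Q) →ₗ[PA F Q] Matrix n n (PA F Q) :=
    { toFun := fun b => ∑ x, b x • mp (PA F Q) (R x)
      map_add' := fun a b => by simp [add_smul, Finset.sum_add_distrib]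
      map_smul' := fun a b => by simp [Finset.smul_sum, smul_smul] }
  have Φa : ∀ b, Φ b = ∑ x, b x • mp (PA F Q) (R x) := fun _ => rfl
  have e2 : ∀ b, T1 (X : Q → PA F Q) r (Φ b) = Φ (T0 (X : Q → PA F Q) s b) := fun b => by
    rw [T1_apply, Φa (T0 _ _ _)]
    simp only [T0_apply, Finset.sum_smul, mul_smul]
    rw [Finset.sum_comm]
    refine Finset.sum_congr rfl fun g _ => ?_
    rw [← Finset.smul_sum]
    congr 1
    simp only [sub_smul, Finset.sum_sub_distrib, Φa, Finset.mul_sum, Finset.sum_mul,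
      Matrix.mul_smul, Matrix.smul_mul, hr']
    congr 1
    refine Fintype.sum_equiv (s g) _ _ fun x => ?_
    rw [map_inv, Equiv.Perm.inv_def, Equiv.symm_apply_apply, sa]
  have e3 : ∀ k b, (T1 (X : Q → PA F Q) r ^ k) (Φ b) = Φ ((T0 (X : Q → PA F Q) s ^ k) b) := by
    intro k
    induction k with
    | zero => intro b; rfl
    | succ k ih => intro b; rw [pow_succ, pow_succ, Module.End.mul_apply, Module.End.mul_apply, e2, ih]
  refine ⟨d * algebraMap F _ κ, mul_ne_zero hd ((map_ne_zero_iff _ (algebraMap F (PA F Q)).injective).2 hR.1), Φ b, ?_⟩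
  rw [e3, ← e, map_smul, Φa, hR.ext, smul_smul]

end CL.DG
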